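import Cfsg.Agent.Lib.H12.Nil
import Cfsg.Agent.Lib.H1.Hall
import Cfsg.Agent.Lib.H12.FacSylow

set_option autoImplicit false

/-! Trifactorised groups: `G = AB = AK = BK` with `A, B, K` nilpotent and `K` normal is
nilpotent. -/

namespace H12.Trifac

open Subgroup H12.Nil
open scoped Pointwise

variable {G : Type*} [Group G] [Finite G]

theorem Sy_normal {K : Subgroup G} (hKn : K.Normal) (hK : Group.IsNilpotent K) (p : ℕ)
    [hp : Fact p.Prime] : (Sy K p).Normal := by
  constructor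
  intro x hx g
  exact conj_mem_Sy hK hx (hKn.conj_mem x (Sy_le K p hx) g)

theorem not_dvd_index {A K : Subgroup G} (hKn : K.Normal) (hA : Group.IsNilpotent A)
    (hK : Group.IsNilpotent K) (hAK : A ⊔ K = ⊤) (p : ℕ) [hp : Fact p.Prime] :
    ¬ p ∣ (Sy A p ⊔ Sy K p).index := by
  have hKp := Sy_normal hKn hK p
  have h1 := H1.Hall.card_sup_mul_card_inf A K
  have h2 := H1.Hall.card_sup_mul_card_inf (Sy A p) (Sy K p)
  have h3 : Nat.card (Sy A p) * (Sy A p).relIndex A = Nat.card A :=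
    Basic.card_mul_relIndex (Sy_le A p)
  have h4 : Nat.card (Sy K p) * (Sy K p).relIndex K = Nat.card K :=
    Basic.card_mul_relIndex (Sy_le K p)
  have h5 : Nat.card (Sy A p ⊓ Sy K p : Subgroup G) * (Sy A p ⊓ Sy K p).relIndex (A ⊓ K) =
      Nat.card (A ⊓ K : Subgroup G) :=
    Basic.card_mul_relIndex (inf_le_inf (Sy_le A p) (Sy_le K p))
  have h6 := Subgroup.card_mul_index (Sy A p ⊔ Sy K p)
  rw [hAK, Subgroup.card_top, ← h6, ← h5, ← h3, ← h4] at h1
  set a := Nat.card (Sy A p)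
  set k := Nat.card (Sy K p)
  set s := Nat.card (Sy A p ⊔ Sy K p : Subgroup G)
  set i := Nat.card (Sy A p ⊓ Sy K p : Subgroup G)
  set a' := (Sy A p).relIndex A
  set k' := (Sy K p).relIndex K
  set c := (Sy A p ⊓ Sy K p).relIndex (A ⊓ K)
  set d := (Sy A p ⊔ Sy K p).index
  have hs : 0 < s := Nat.card_pos
  have hi : 0 < i := Nat.card_pos
  have h7 : (s * i) * (d * c) = (s * i) * (a' * k') := by
    calc (s * i) * (d * c) = (s * d) * (i * c) := by ring
      _ = (a * a') * (k * k') := h1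
      _ = (a * k) * (a' * k') := by ring
      _ = _ := by rw [← h2]
  have h8 := Nat.eq_of_mul_eq_mul_left (Nat.mul_pos hs hi) h7
  intro hd
  have h9 : p ∣ a' * k' := h8 ▸ (hd.mul_right c)
  rcases hp.out.dvd_mul.1 h9 with h | h
  · exact not_dvd_relIndex_Sy hA p h
  · exact not_dvd_relIndex_Sy hK p h

theorem isPGroup_sup {A K : Subgroup G} (hKn : K.Normal) 
    (hK : Group.IsNilpotent K) (p : ℕ) [hp : Fact p.Prime] :
    IsPGroup p (Sy A p ⊔ Sy K p : Subgroup G) := by
  have hKp := Sy_normal hKn hK p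
  exact (isPGroup_Sy A p).to_sup_of_normal_right (isPGroup_Sy K p)

theorem nilpotent {A B K : Subgroup G} (hKn : K.Normal) (hA : Group.IsNilpotent A)
    (hB : Group.IsNilpotent B) (hK : Group.IsNilpotent K)
    (hAB : ∀ g : G, ∃ a ∈ A, ∃ b ∈ B, g = a * b) (hAK : A ⊔ K = ⊤) (hBK : B ⊔ K = ⊤) :
    Group.IsNilpotent G := by
  refine ((Group.isNilpotent_of_finite_tfae (G := G)).out 0 3).2 ?_
  intro p hp P
  have hKp := Sy_normal hKn hK p
  set SA : Sylow p G := (isPGroup_sup (A := A) hKn hK p).toSylow (not_dvd_index hKn hA hK hAK p)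
    with hSA
  set SB : Sylow p G := (isPGroup_sup (A := B) hKn hK p).toSylow (not_dvd_index hKn hB hK hBK p)
    with hSB
  have eA : (SA : Subgroup G) = Sy A p ⊔ Sy K p := rfl
  have eB : (SB : Subgroup G) = Sy B p ⊔ Sy K p := rfl
  have nA : A ≤ Subgroup.normalizer ((SA : Subgroup G) : Set G) := by
    rw [eA]
    refine (le_inf (le_normalizer_Sy hA p) ?_).trans
      (Subgroup.normalizer_inf_normalizer_le_normalizer_sup _ _)
    rw [Subgroup.normalizer_eq_top]
    exact le_top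
  have nB : B ≤ Subgroup.normalizer ((SB : Subgroup G) : Set G) := by
    rw [eB]
    refine (le_inf (le_normalizer_Sy hB p) ?_).trans
      (Subgroup.normalizer_inf_normalizer_le_normalizer_sup _ _)
    rw [Subgroup.normalizer_eq_top]
    exact le_top
  obtain ⟨g, hg⟩ := MulAction.exists_smul_eq G SB SA
  obtain ⟨a, ha, b, hb, rfl⟩ := hAB g
  have e1 : b • SB = SB := by
    rw [Sylow.smul_eq_iff_mem_normalizer]
    exact nB hb
  have e2 : a⁻¹ • SA = SA := by
    rw [Sylow.smul_eq_iff_mem_normalizer]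
    exact inv_mem (nA ha)
  have e3 : SB = SA := by
    rw [mul_smul, e1] at hg
    rw [← e2, ← hg, inv_smul_smul]
  have e4 : (SA : Subgroup G).Normal := by
    rw [← Subgroup.normalizer_eq_top_iff, eq_top_iff]
    intro g _
    obtain ⟨a, ha, b, hb, rfl⟩ := hAB g
    exact mul_mem (nA ha) (e3 ▸ nB hb)
  have e5 : P = SA := by
    obtain ⟨g, hg⟩ := MulAction.exists_smul_eq G SA P
    rw [← hg]
    rw [Sylow.smul_eq_iff_mem_normalizer]
    have e6 : Subgroup.normalizer ((SA : Subgroup G) : Set G) = ⊤ :=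
      Subgroup.normalizer_eq_top_iff.2 e4
    exact e6 ▸ Subgroup.mem_top g
  rw [e5]; exact e4

end H12.Trifac
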