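import Cfsg.Agent.Lib.H12.Ito
import Cfsg.Agent.Lib.H12.Trifac

set_option autoImplicit false

/-! Products of two abelian groups contain a normal subgroup in one of the factors. -/

namespace H12.AbAb

open Subgroup
open scoped commutatorElement

theorem isNilpotent_of_comm {G : Type*} [Group G] {A : Subgroup G}
    (hA : ∀ x ∈ A, ∀ y ∈ A, x * y = y * x) : Group.IsNilpotent A := by
  letI : CommGroup A := { (inferInstance : Group A) with
    mul_comm := fun x y => Subtype.ext (hA x x.2 y y.2) }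
  exact CommGroup.isNilpotent

theorem comm_subgroupOf {G : Type*} [Group G] {A : Subgroup G}
    (hA : ∀ x ∈ A, ∀ y ∈ A, x * y = y * x) (F : Subgroup G) :
    ∀ x ∈ A.subgroupOf F, ∀ y ∈ A.subgroupOf F, x * y = y * x :=
  fun x hx y hy => Subtype.ext (hA x hx y hy)

/-- in `G = AB` an element of the abelian group `A` commuting with `B` is central -/
theorem mem_center {G : Type*} [Group G] {A B : Subgroup G}
    (hA : ∀ x ∈ A, ∀ y ∈ A, x * y = y * x)
    (hAB : ∀ g : G, ∃ a ∈ A, ∃ b ∈ B, g = a * b) {z : G} (hz : z ∈ A)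
    (h : ∀ b ∈ B, b * z = z * b) : z ∈ Subgroup.center G := by
  rw [Subgroup.mem_center_iff]
  intro g
  obtain ⟨a, ha, b, hb, rfl⟩ := hAB g
  rw [mul_assoc, h b hb, ← mul_assoc, hA a ha z hz, mul_assoc]

theorem swap {G : Type*} [Group G] {A B : Subgroup G}
    (hAB : ∀ g : G, ∃ a ∈ A, ∃ b ∈ B, g = a * b) : ∀ g : G, ∃ b ∈ B, ∃ a ∈ A, g = b * a := by
  intro g
  obtain ⟨a, ha, b, hb, h⟩ := hAB g⁻¹
  refine ⟨b⁻¹, inv_mem hb, a⁻¹, inv_mem ha, ?_⟩
  rw [← mul_inv_rev, ← h, inv_inv]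

theorem center_eq_bot {G : Type*} [Group G] {A B : Subgroup G}
    (hA : ∀ x ∈ A, ∀ y ∈ A, x * y = y * x) (hB : ∀ x ∈ B, ∀ y ∈ B, x * y = y * x)
    (hAB : ∀ g : G, ∃ a ∈ A, ∃ b ∈ B, g = a * b)
    (hnoA : ∀ N : Subgroup G, N.Normal → N ≤ A → N = ⊥)
    (hnoB : ∀ N : Subgroup G, N.Normal → N ≤ B → N = ⊥) : Subgroup.center G = ⊥ := by
  have hnorm : ∀ X : Subgroup G, (X ⊓ Subgroup.center G).Normal := by
    intro X
    constructor
    intro x hx g
    have : g * x * g⁻¹ = x := by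
      rw [Subgroup.mem_center_iff.1 hx.2 g]; group
    rw [this]; exact hx
  rw [Subgroup.eq_bot_iff_forall]
  intro z hz
  obtain ⟨a, ha, b, hb, rfl⟩ := hAB z
  have hz' := Subgroup.mem_center_iff.1 hz
  have h1 : a ∈ Subgroup.center G := by
    apply mem_center hA hAB ha
    intro c hc
    have h2 := hz' c
    have h3 := hB c hc b hb
    have : c * a * b = a * c * b := by
      rw [mul_assoc c a b, h2, mul_assoc, ← h3, ← mul_assoc]
    exact mul_right_cancel this
  have h2 : a = 1 := by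
    have := hnoA _ (hnorm A) inf_le_left
    have h3 : a ∈ A ⊓ Subgroup.center G := Subgroup.mem_inf.2 ⟨ha, h1⟩
    rw [this] at h3
    exact Subgroup.mem_bot.1 h3
  subst h2
  rw [one_mul] at hz ⊢
  have := hnoB _ (hnorm B) inf_le_left
  have h3 : b ∈ B ⊓ Subgroup.center G := Subgroup.mem_inf.2 ⟨hb, hz⟩
  rw [this] at h3
  exact Subgroup.mem_bot.1 h3

/-- if `F` is normal containing the derived group then the fixed points of `A` on `Z(F)` are
trivial -/
theorem fixed_trivial {G : Type*} [Group G] {A B F : Subgroup G}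
    (hA : ∀ x ∈ A, ∀ y ∈ A, x * y = y * x) (hB : ∀ x ∈ B, ∀ y ∈ B, x * y = y * x)
    (hAB : ∀ g : G, ∃ a ∈ A, ∃ b ∈ B, g = a * b)
    (hnoA : ∀ N : Subgroup G, N.Normal → N ≤ A → N = ⊥)
    (hnoB : ∀ N : Subgroup G, N.Normal → N ≤ B → N = ⊥) (hF : commutator G ≤ F)
    {z : G} (hz : z ∈ F) (hzF : ∀ y ∈ F, y * z = z * y) (hzA : ∀ a ∈ A, a * z = z * a) :
    z = 1 := by
  have hZ := center_eq_bot hA hB hAB hnoA hnoB
  have hFn : F.Normal := by
    constructor
    intro x hx g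
    have : g * x * g⁻¹ = ⁅g, x⁆ * x := by rw [commutatorElement_def]; group
    rw [this]
    exact F.mul_mem (hF (Subgroup.commutator_mem_commutator (Subgroup.mem_top _)
      (Subgroup.mem_top _))) hx
  set C : Subgroup G := F ⊓ Subgroup.centralizer (F : Set G) ⊓ Subgroup.centralizer (A : Set G)
    with hC
  have hCn : C.Normal := by
    constructor
    intro x hx g
    obtain ⟨⟨hx1, hx2⟩, hx3⟩ := hx
    have hcn : (Subgroup.centralizer (F : Set G)).Normal := inferInstance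
    have h2 := hcn.conj_mem x hx2 g
    refine Subgroup.mem_inf.2 ⟨Subgroup.mem_inf.2 ⟨hFn.conj_mem x hx1 g, h2⟩, ?_⟩
    rw [Subgroup.mem_centralizer_iff]
    intro a ha
    have h3 : ⁅g⁻¹, a⁆ * x = x * ⁅g⁻¹, a⁆ :=
      Subgroup.mem_centralizer_iff.1 hx2 _ (hF (Subgroup.commutator_mem_commutator
        (Subgroup.mem_top _) (Subgroup.mem_top _)))
    have h4 : a * x = x * a := Subgroup.mem_centralizer_iff.1 hx3 _ ha
    calc a * (g * x * g⁻¹) = g * (⁅g⁻¹, a⁆ * (a * x)) * g⁻¹ := by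
          rw [commutatorElement_def]; group
      _ = g * ((⁅g⁻¹, a⁆ * x) * a) * g⁻¹ := by rw [h4, ← mul_assoc (⁅g⁻¹, a⁆)]
      _ = g * ((x * ⁅g⁻¹, a⁆) * a) * g⁻¹ := by rw [h3]
      _ = _ := by rw [commutatorElement_def]; group
  have hCA : C ≤ A := by
    intro x hx
    obtain ⟨⟨hx1, hx2⟩, hx3⟩ := hx
    obtain ⟨a, ha, b, hb, rfl⟩ := hAB x
    have h5 : b ∈ Subgroup.center G := by
      apply mem_center hB (swap hAB) hb
      intro c hc
      have h6 : c * (a * b) = (a * b) * c := Subgroup.mem_centralizer_iff.1 hx3 _ hc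
      rw [← mul_assoc, hA c hc a ha, mul_assoc, mul_assoc] at h6
      exact mul_left_cancel h6
    rw [hZ, Subgroup.mem_bot] at h5
    subst h5
    rwa [mul_one]
  have hCb := hnoA C hCn hCA
  have : z ∈ C := Subgroup.mem_inf.2 ⟨Subgroup.mem_inf.2 ⟨hz, Subgroup.mem_centralizer_iff.2 hzF⟩,
    Subgroup.mem_centralizer_iff.2 hzA⟩
  rw [hCb] at this
  exact Subgroup.mem_bot.1 this

theorem main {G : Type*} [Group G] [Finite G] [Nontrivial G] (A B : Subgroup G)
    (hA : ∀ x ∈ A, ∀ y ∈ A, x * y = y * x) (hB : ∀ x ∈ B, ∀ y ∈ B, x * y = y * x)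
    (hAB : ∀ g : G, ∃ a ∈ A, ∃ b ∈ B, g = a * b) :
    ∃ N : Subgroup G, N.Normal ∧ N ≠ ⊥ ∧ (N ≤ A ∨ N ≤ B) := by
  classical
  by_contra hcon
  push Not at hcon
  have hnoA : ∀ N : Subgroup G, N.Normal → N ≤ A → N = ⊥ := by
    intro N hN hle
    by_contra h
    exact (hcon N hN h).1 hle
  have hnoB : ∀ N : Subgroup G, N.Normal → N ≤ B → N = ⊥ := by
    intro N hN hle
    by_contra h
    exact (hcon N hN h).2 hle
  have hZ := center_eq_bot hA hB hAB hnoA hnoB
  set K := commutator G with hKdef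
  have hKn : K.Normal := by rw [hKdef]; infer_instance
  have hKc : ∀ x ∈ K, ∀ y ∈ K, x * y = y * x := Ito.ito A B hA hB hAB
  have hK1 : K ≠ ⊥ := by
    intro h
    have h1 : Subgroup.center G = ⊤ := by
      rw [eq_top_iff]
      intro x _
      rw [Subgroup.mem_center_iff]
      intro g
      have : ⁅g, x⁆ ∈ K := Subgroup.commutator_mem_commutator (Subgroup.mem_top _)
        (Subgroup.mem_top _)
      rw [h, Subgroup.mem_bot, commutatorElement_eq_one_iff_mul_comm] at this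
      exact this
    rw [hZ] at h1
    exact bot_ne_top h1
  set F : Subgroup G := (A ⊔ K) ⊓ (B ⊔ K) with hF
  have hKF : K ≤ F := le_inf le_sup_right le_sup_right
  -- factorization of F
  have hfac : ∀ x ∈ F, ∀ a ∈ A, ∀ b ∈ B, x = a * b → a ∈ F ∧ b ∈ F := by
    intro x hx a ha b hb h
    have hb1 : b ∈ A ⊔ K := by
      have : b = a⁻¹ * x := by rw [h]; group
      rw [this]
      exact mul_mem (le_sup_left (a := A) (inv_mem ha)) (Subgroup.mem_inf.1 hx).1
    have hbF : b ∈ F := Subgroup.mem_inf.2 ⟨hb1, le_sup_left (a := B) hb⟩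
    refine ⟨?_, hbF⟩
    have : a = x * b⁻¹ := by rw [h]; group
    rw [this]
    exact mul_mem hx (inv_mem hbF)
  have hFnil : Group.IsNilpotent F := by
    apply Trifac.nilpotent (A := A.subgroupOf F) (B := B.subgroupOf F) (K := K.subgroupOf F)
      inferInstance (isNilpotent_of_comm (comm_subgroupOf hA F))
      (isNilpotent_of_comm (comm_subgroupOf hB F)) (isNilpotent_of_comm (comm_subgroupOf hKc F))
    · rintro ⟨x, hx⟩
      obtain ⟨a, ha, b, hb, h⟩ := hAB x
      obtain ⟨h1, h2⟩ := hfac x hx a ha b hb h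
      exact ⟨⟨a, h1⟩, ha, ⟨b, h2⟩, hb, Subtype.ext h⟩
    · rw [eq_top_iff]
      rintro ⟨x, hx⟩ _
      obtain ⟨a, ha, k, hk, h⟩ := Subgroup.mem_sup_of_normal_right.1 (Subgroup.mem_inf.1 hx).1
      have hkF := hKF hk
      have haF : a ∈ F := by
        have : a = x * k⁻¹ := by rw [← h]; group
        rw [this]; exact mul_mem hx (inv_mem hkF)
      have : (⟨x, hx⟩ : F) = ⟨a, haF⟩ * ⟨k, hkF⟩ := Subtype.ext h.symm
      rw [this]
      exact mul_mem (le_sup_left (a := A.subgroupOf F) (show (⟨a, haF⟩ : F) ∈ A.subgroupOf F from ha))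
        (le_sup_right (a := A.subgroupOf F) (show (⟨k, hkF⟩ : F) ∈ K.subgroupOf F from hk))
    · rw [eq_top_iff]
      rintro ⟨x, hx⟩ _
      obtain ⟨a, ha, k, hk, h⟩ := Subgroup.mem_sup_of_normal_right.1 (Subgroup.mem_inf.1 hx).2
      have hkF := hKF hk
      have haF : a ∈ F := by
        have : a = x * k⁻¹ := by rw [← h]; group
        rw [this]; exact mul_mem hx (inv_mem hkF)
      have : (⟨x, hx⟩ : F) = ⟨a, haF⟩ * ⟨k, hkF⟩ := Subtype.ext h.symm
      rw [this]
      exact mul_mem (le_sup_left (a := B.subgroupOf F) (show (⟨a, haF⟩ : F) ∈ B.subgroupOf F from ha))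
        (le_sup_right (a := B.subgroupOf F) (show (⟨k, hkF⟩ : F) ∈ K.subgroupOf F from hk))
  have hFnt : Nontrivial F := by
    rw [Subgroup.nontrivial_iff_ne_bot]
    intro h
    exact hK1 (le_bot_iff.1 (h ▸ hKF))
  have hZF : Subgroup.center F ≠ ⊥ := Group.IsNilpotent.center_ne_bot _
  apply hZF
  rw [Subgroup.eq_bot_iff_forall]
  intro z hz
  have hz' : ∀ y ∈ F, y * (z : G) = z * y := fun y hy =>
    congrArg Subtype.val (Subgroup.mem_center_iff.1 hz ⟨y, hy⟩)
  obtain ⟨a, ha, b, hb, h⟩ := hAB z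
  obtain ⟨haF, hbF⟩ := hfac z z.2 a ha b hb h
  -- F = A0 B0 and z = ab central
  have ha1 : ∀ y ∈ F, y * a = a * y := by
    -- a commutes with A0 and with B0
    have haB : ∀ c ∈ B, c ∈ F → c * a = a * c := by
      intro c hc hcF
      have h2 := hz' c hcF
      rw [h] at h2
      have h3 := hB c hc b hb
      have : c * a * b = a * c * b := by
        rw [mul_assoc c a b, h2, mul_assoc, ← h3, ← mul_assoc]
      exact mul_right_cancel this
    intro y hy
    obtain ⟨a1, ha1, b1, hb1, h1⟩ := hAB y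
    obtain ⟨ha1F, hb1F⟩ := hfac y hy a1 ha1 b1 hb1 h1
    rw [h1, mul_assoc, haB b1 hb1 hb1F, ← mul_assoc, hA a1 ha1 a ha, mul_assoc]
  have hb1 : ∀ y ∈ F, y * b = b * y := by
    intro y hy
    have h2 := hz' y hy
    rw [h, ← mul_assoc, ha1 y hy, mul_assoc, mul_assoc] at h2
    exact mul_left_cancel h2
  have e1 : a = 1 := fixed_trivial hA hB hAB hnoA hnoB hKF haF ha1 (fun c hc => hA c hc a ha)
  have e2 : b = 1 := fixed_trivial hB hA (swap hAB) hnoB hnoA hKF hbF hb1
    (fun c hc => hB c hc b hb)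
  apply Subtype.ext
  rw [h, e1, e2, one_mul]
  rfl

end H12.AbAb
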