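import Cfsg.Agent.Lib.H11.SystemNormalizer
import Cfsg.Agent.Lib.H39.NPS
import Cfsg.Agent.Lib.H12.MinNormal
import Cfsg.Agent.Lib.H1.Cores

set_option autoImplicit false

/-! System normalizers cover central chief factors and avoid eccentric ones. -/

namespace H12.SysNorm

open Subgroup
open scoped commutatorElement

theorem inf_eq_bot {G : Type*} [Group G] [Finite G] (hs : Group.IsSolvable G)
    {K : Nat.Primes → Subgroup G} (hK : Cfsg.IsComplementSystem K) {B : Subgroup G}
    (hB : B.Normal) (hBb : B ≠ ⊥)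
    (hmin : ∀ N : Subgroup G, N.Normal → N ≤ B → N = ⊥ ∨ N = B)
    (hne : ¬ ⁅B, (⊤ : Subgroup G)⁆ = ⊥) : B ⊓ Cfsg.systemNormalizer K = ⊥ := by
  have hBc := MinNormal.comm_of_solvable hB hBb hmin
  obtain ⟨p, hp, hexp⟩ := MinNormal.exists_prime_exponent hB hBb hmin hBc
  have hpf := Fact.mk hp
  have hBp : IsPGroup p B := MinNormal.isPGroup_of_exponent hexp
  set C : Subgroup G := Subgroup.centralizer (B : Set G) with hC
  have hCn : C.Normal := inferInstance
  have hCtop : C ≠ ⊤ := by
    intro h
    apply hne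
    rw [Subgroup.commutator_comm, Subgroup.commutator_eq_bot_iff_le_centralizer, ← hC, h]
  have hnt : Nontrivial (G ⧸ C) := by rw [QuotientGroup.nontrivial_iff]; exact hCtop
  obtain ⟨T', hT', hT'b, -, hT'min⟩ := MinNormal.exists_min (G := G ⧸ C)
    (N := (⊤ : Subgroup (G ⧸ C))) inferInstance top_ne_bot
  have hT'c := MinNormal.comm_of_solvable hT' hT'b hT'min
  obtain ⟨r, hr, hrexp⟩ := MinNormal.exists_prime_exponent hT' hT'b hT'min hT'c
  have hrf := Fact.mk hr
  have hT'r : IsPGroup r T' := MinNormal.isPGroup_of_exponent hrexp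
  set T : Subgroup G := T'.comap (QuotientGroup.mk' C) with hT
  have hTn : T.Normal := hT'.comap _
  have hTC : ¬ T ≤ C := by
    intro h
    apply hT'b
    rw [eq_bot_iff]
    intro x hx
    obtain ⟨x, rfl⟩ := QuotientGroup.mk'_surjective C x
    have := h hx
    rw [Subgroup.mem_bot]
    exact (QuotientGroup.eq_one_iff x).2 this
  have hCT : B ⊓ Subgroup.centralizer (T : Set G) = ⊥ := by
    rcases hmin (B ⊓ Subgroup.centralizer (T : Set G)) inferInstance inf_le_left with h | h
    · exact h
    · exfalso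
      apply hTC
      have h1 : B ≤ Subgroup.centralizer (T : Set G) := inf_eq_left.1 h
      exact Subgroup.le_centralizer_iff.1 h1
  have hrp : r ≠ p := by
    intro h
    subst h
    apply H39.NPS.inf_centralizer_ne_bot hBp hBb (K := T) _ hCT
    intro k hk
    refine ⟨1, ?_⟩
    rw [pow_one]
    have h1 := hrexp _ hk
    rw [← map_pow] at h1
    exact (QuotientGroup.eq_one_iff _).1 h1
  -- T is contained in `C ⊔ K p`
  set Q : Subgroup G := K ⟨p, hp⟩ with hQ
  have hTQ : T ≤ C ⊔ Q := by
    have h1 : T' ≤ Q.map (QuotientGroup.mk' C) := by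
      rw [← Subgroup.relIndex_eq_one]
      have h2 : (Q.map (QuotientGroup.mk' C)).relIndex T' ∣ Nat.card T' :=
        Subgroup.relIndex_dvd_card _ _
      have h3 : (Q.map (QuotientGroup.mk' C)).relIndex T' ∣
          (p : ℕ) ^ (Nat.card G).factorization p := by
        have h4 : (Q.map (QuotientGroup.mk' C)).index ∣ Q.index :=
          Subgroup.index_map_dvd _ (QuotientGroup.mk'_surjective C)
        rw [hK ⟨p, hp⟩] at h4
        refine dvd_trans ?_ h4
        rw [H11.SubnormalMore.relIndex_sup_of_normal]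
        exact Subgroup.relIndex_dvd_index_of_le le_sup_left
      obtain ⟨k, hk⟩ := hT'r.exists_card_eq
      rw [hk] at h2
      exact Nat.eq_one_of_dvd_coprimes (Nat.Coprime.pow _ _ ((Nat.coprime_primes hr hp).2 hrp)) h2 h3
    intro x hx
    obtain ⟨q, hq, e⟩ := h1 (show (QuotientGroup.mk' C) x ∈ T' from hx)
    have h5 := QuotientGroup.eq.1 e
    have : x = q * (q⁻¹ * x) := by group
    rw [this]
    exact mul_mem (le_sup_right (a := C) hq) (le_sup_left (a := C) h5)
  -- B ⊓ D centralizes Q
  have hDQ : B ⊓ Cfsg.systemNormalizer K ≤ Subgroup.centralizer (Q : Set G) := by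
    have hBQ : B ⊓ Q = ⊥ :=
      H1.Cores.disjoint_of_isPGroup hBp (H11.SystemNormalizer.card_coprime hK (⟨p, hp⟩ : Nat.Primes))
    have hDn : Cfsg.systemNormalizer K ≤ Subgroup.normalizer (Q : Set G) :=
      iInf_le (fun p : Nat.Primes => Subgroup.normalizer (K p : Set G)) ⟨p, hp⟩
    rw [← Subgroup.commutator_eq_bot_iff_le_centralizer, ← le_bot_iff, ← hBQ, Subgroup.commutator_le]
    intro x hx y hy
    obtain ⟨hx1, hx2⟩ := Subgroup.mem_inf.1 hx
    rw [commutatorElement_def]
    refine Subgroup.mem_inf.2 ⟨?_, ?_⟩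
    · have := hB.conj_mem x⁻¹ (B.inv_mem hx1) y
      have h6 : x * y * x⁻¹ * y⁻¹ = x * (y * x⁻¹ * y⁻¹) := by group
      rw [h6]
      exact B.mul_mem hx1 this
    · exact Q.mul_mem ((Subgroup.mem_normalizer_iff.1 (hDn hx2) y).1 hy) (Q.inv_mem hy)
  rw [← le_bot_iff, ← hCT]
  refine le_inf inf_le_left ?_
  rw [Subgroup.le_centralizer_iff]
  refine hTQ.trans (sup_le ?_ ?_)
  · rw [← Subgroup.le_centralizer_iff]
    refine inf_le_left.trans ?_
    rw [← Subgroup.le_centralizer_iff]
  · rw [← Subgroup.le_centralizer_iff]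
    exact hDQ

theorem covers_avoids {G : Type*} [Group G] [Finite G] (hs : Group.IsSolvable G)
    (K : Nat.Primes → Subgroup G) (hK : Cfsg.IsComplementSystem K) (A B : Subgroup G)
    [hA : A.Normal] [hB : B.Normal] (hAB : A < B)
    (hchief : ∀ N : Subgroup G, N.Normal → A ≤ N → N ≤ B → N = A ∨ N = B) :
    (⁅B, (⊤ : Subgroup G)⁆ ≤ A → B ≤ A ⊔ Cfsg.systemNormalizer K) ∧
      (¬ ⁅B, (⊤ : Subgroup G)⁆ ≤ A → B ⊓ Cfsg.systemNormalizer K ≤ A) := by
  set f := QuotientGroup.mk' A with hf
  have hfs : Function.Surjective f := QuotientGroup.mk'_surjective A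
  have hmap := H11.SystemNormalizer.systemNormalizer_map hs K hK A
  have hKm := H11.SystemNormalizer.map_system K hK A
  constructor
  · intro h
    have h1 : B.map f ≤ (Cfsg.systemNormalizer K).map f := by
      rw [← hmap]
      have h2 : B.map f ≤ Subgroup.center (G ⧸ A) := by
        rintro _ ⟨b, hb, rfl⟩
        rw [Subgroup.mem_center_iff]
        intro g
        obtain ⟨g, rfl⟩ := hfs g
        have h3 : f ⁅b, g⁆ = 1 := (QuotientGroup.eq_one_iff _).2
          (h (Subgroup.commutator_mem_commutator hb (Subgroup.mem_top g)))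
        rw [map_commutatorElement] at h3
        exact (commutatorElement_eq_one_iff_mul_comm.1 h3).symm
      refine h2.trans (le_iInf fun p => ?_)
      exact Subgroup.center_le_normalizer _
    intro b hb
    obtain ⟨d, hd, e⟩ := h1 ⟨b, hb, rfl⟩
    have h5 := QuotientGroup.eq.1 e
    have : b = d * (d⁻¹ * b) := by group
    rw [this]
    exact mul_mem (le_sup_right (a := A) hd) (le_sup_left (a := A) h5)
  · intro h
    have h1 : B.map f ⊓ Cfsg.systemNormalizer (fun p => (K p).map f) = ⊥ := by
      apply inf_eq_bot inferInstance hKm (hB.map f hfs)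
      · intro h2
        rw [Subgroup.map_eq_bot_iff, hf, QuotientGroup.ker_mk'] at h2
        exact hAB.not_ge h2
      · intro N hN hNB
        have h3 : N.comap f = A ∨ N.comap f = B := by
          apply hchief _ (hN.comap f)
          · intro x hx
            have h6 : f x = 1 := (QuotientGroup.eq_one_iff x).2 hx
            rw [Subgroup.mem_comap, h6]
            exact N.one_mem
          · intro x hx
            obtain ⟨b, hb, e⟩ := hNB hx
            have h5 := QuotientGroup.eq.1 e
            have : x = b * (b⁻¹ * x) := by group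
            rw [this]
            exact B.mul_mem hb (hAB.le h5)
        rcases h3 with h3 | h3
        · left
          rw [← Subgroup.map_comap_eq_self_of_surjective hfs N, h3,
            Subgroup.map_eq_bot_iff, hf, QuotientGroup.ker_mk']
        · right
          rw [← Subgroup.map_comap_eq_self_of_surjective hfs N, h3]
      · intro h2
        apply h
        rw [Subgroup.commutator_le]
        intro b hb g _
        have h3 : f ⁅b, g⁆ ∈ ⁅B.map f, (⊤ : Subgroup (G ⧸ A))⁆ := by
          rw [map_commutatorElement]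
          exact Subgroup.commutator_mem_commutator ⟨b, hb, rfl⟩ (Subgroup.mem_top _)
        rw [h2, Subgroup.mem_bot] at h3
        exact (QuotientGroup.eq_one_iff _).1 h3
    rw [hmap] at h1
    intro x hx
    obtain ⟨hx1, hx2⟩ := Subgroup.mem_inf.1 hx
    have h2 : f x ∈ B.map f ⊓ (Cfsg.systemNormalizer K).map f :=
      Subgroup.mem_inf.2 ⟨⟨x, hx1, rfl⟩, ⟨x, hx2, rfl⟩⟩
    rw [h1, Subgroup.mem_bot] at h2
    exact (QuotientGroup.eq_one_iff _).1 h2

end H12.SysNorm
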