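import Cfsg.Agent.Lib.H1.Carter
import Cfsg.Agent.Lib.H12.SysNorm
import Cfsg.Agent.Lib.H73.Nilp
import Cfsg.Agent.Lib.H70.PiSep

/-! Carter subgroups and system normalizers. -/

set_option autoImplicit false

open Subgroup Cfsg
open scoped Pointwise

namespace H12.CarterSys

universe u

open H1.Carter (IsCarter ConjP)

/-- `p'`-elements of a nilpotent group. -/
theorem mem_pPrimeCore {G : Type*} [Group G] [Finite G] [Group.IsNilpotent G] {p : ℕ}
    [Fact p.Prime] {x : G} (hx : (orderOf x).Coprime p) : x ∈ pPrimeCore p G := by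
  obtain ⟨n, hn⟩ := H30.Nil2.index_pPrimeCore (G := G) p
  rw [← QuotientGroup.eq_one_iff, ← orderOf_eq_one_iff]
  have h1 : orderOf (x : G ⧸ pPrimeCore p G) ∣ p ^ n := by
    rw [← hn, Subgroup.index_eq_card]; exact orderOf_dvd_natCard _
  have h2 : orderOf (x : G ⧸ pPrimeCore p G) ∣ orderOf x :=
    orderOf_map_dvd (QuotientGroup.mk' _) x
  exact Nat.eq_one_of_dvd_coprimes (Nat.Coprime.pow_right n hx) h2 h1

/-- lifting `p'`-elements. -/
theorem exists_pow {G H : Type*} [Group G] [Group H] [Finite G] (f : G →* H) (c : G) {p : ℕ}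
    [hp : Fact p.Prime] (h : (orderOf (f c)).Coprime p) :
    ∃ m : ℕ, f (c ^ m) = f c ∧ (orderOf (c ^ m)).Coprime p := by
  obtain ⟨k, t, ht, hkt⟩ := Nat.exists_eq_pow_mul_and_not_dvd (orderOf_pos c).ne' p
    hp.out.ne_one
  have htp : t.Coprime p := ((Nat.Prime.coprime_iff_not_dvd hp.out).2 ht).symm
  have hd : orderOf (f c) ∣ t := by
    have h1 : orderOf (f c) ∣ p ^ k * t := by rw [← hkt]; exact orderOf_map_dvd f c
    exact (Nat.Coprime.pow_right k h).dvd_of_dvd_mul_left h1
  obtain ⟨m, hm1, hm2⟩ := Nat.chineseRemainder (Nat.Coprime.pow_left k htp.symm) 0 1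
  refine ⟨m, ?_, ?_⟩
  · rw [map_pow]
    have h2 : f c ^ m = f c ^ 1 := by
      rw [pow_eq_pow_iff_modEq]
      exact hm2.of_dvd hd
    rw [h2, pow_one]
  · have h3 : orderOf (c ^ m) ∣ t := by
      rw [orderOf_dvd_iff_pow_eq_one, ← pow_mul, ← orderOf_dvd_iff_pow_eq_one, hkt]
      exact Nat.mul_dvd_mul_right ((Nat.modEq_zero_iff_dvd).1 hm1) t
    exact Nat.Coprime.coprime_dvd_left h3 htp

/-- `C` reduces into the system `K`. -/
def Red {G : Type*} [Group G] (C : Subgroup G) (K : Nat.Primes → Subgroup G) : Prop :=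
  ∀ p : Nat.Primes, ∀ x ∈ C, (orderOf x).Coprime p → x ∈ K p

theorem Red.map {G : Type*} [Group G] [Finite G] {C : Subgroup G} {K : Nat.Primes → Subgroup G}
    (h : Red C K) (N : Subgroup G) [N.Normal] :
    Red (C.map (QuotientGroup.mk' N)) (fun p => (K p).map (QuotientGroup.mk' N)) := by
  rintro p _ ⟨c, hc, rfl⟩ hx
  have := Fact.mk p.2
  obtain ⟨m, hm1, hm2⟩ := exists_pow (QuotientGroup.mk' N) c hx
  rw [← hm1]
  exact mem_map_of_mem _ (h p _ (pow_mem hc m) hm2)

theorem Red.subgroupOf {G : Type*} [Group G] {C : Subgroup G}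
    {K : Nat.Primes → Subgroup G} (h : Red C K) (M : Subgroup G) :
    Red (C.subgroupOf M) (fun p => (K p).subgroupOf M) := by
  intro p x hx hxp
  rw [mem_subgroupOf] at hx ⊢
  exact h p _ hx (by rwa [Subgroup.orderOf_coe])

/-- the `p'`-core of `C` as a subgroup of `G`. -/
theorem Red.map_pPrimeCore_le {G : Type*} [Group G] [Finite G] {C : Subgroup G}
    {K : Nat.Primes → Subgroup G} (h : Red C K) (p : Nat.Primes) :
    (pPrimeCore p C).map C.subtype ≤ K p := by
  rintro _ ⟨x, hx, rfl⟩
  refine h p _ x.2 ?_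
  have h1 := H1.Cores.coprime_card_pPrimeCore (G := C) p
  refine Nat.Coprime.coprime_dvd_left ?_ h1
  rw [Subgroup.coe_subtype, Subgroup.orderOf_coe]
  rw [show orderOf x = orderOf (⟨x, hx⟩ : pPrimeCore p C) from (Subgroup.orderOf_mk x hx).symm]
  exact orderOf_dvd_natCard _

theorem exists_system {G : Type*} [Group G] [Finite G] (hs : Group.IsSolvable G) {C : Subgroup G}
    (hC : Group.IsNilpotent C) : ∃ K, IsComplementSystem K ∧ Red C K := by
  have h : ∀ p : Nat.Primes, ∃ K : Subgroup G, K.index = (p : ℕ) ^ (Nat.card G).factorization p ∧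
      (pPrimeCore p C).map C.subtype ≤ K := by
    intro p
    have hpf := Fact.mk p.2
    have h1 : Nat.card G = (Nat.card G / (p : ℕ) ^ (Nat.card G).factorization p) *
        (p : ℕ) ^ (Nat.card G).factorization p :=
      (Nat.div_mul_cancel (Nat.ordProj_dvd _ _)).symm
    have h2 : (Nat.card G / (p : ℕ) ^ (Nat.card G).factorization p).Coprime
        ((p : ℕ) ^ (Nat.card G).factorization p) :=
      Nat.Coprime.pow_right _ (Nat.coprime_ordCompl p.2 Nat.card_pos.ne').symm
    have h3 : (Nat.card ((pPrimeCore p C).map C.subtype)).Coprime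
        ((p : ℕ) ^ (Nat.card G).factorization p) := by
      rw [card_map_of_injective C.subtype_injective]
      exact Nat.Coprime.pow_right _ (H1.Cores.coprime_card_pPrimeCore _)
    obtain ⟨K, hK, hle⟩ := H1.Hall.exists_card_eq_ge hs _ _ h1 h2 _ h3
    refine ⟨K, ?_, hle⟩
    have h5 := K.card_mul_index
    rw [hK] at h5
    have h6 : 0 < Nat.card G / (p : ℕ) ^ (Nat.card G).factorization p := Nat.pos_of_ne_zero (by
      intro h0
      rw [h0, zero_mul] at h1
      exact Nat.card_pos.ne' h1)
    exact Nat.eq_of_mul_eq_mul_left h6 (h5.trans h1)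
  choose K hK hle using h
  refine ⟨K, hK, fun p x hx hxp => hle p ⟨⟨x, hx⟩, ?_, rfl⟩⟩
  have hpf := Fact.mk p.2
  exact mem_pPrimeCore (by rwa [Subgroup.orderOf_mk])

theorem restrict {G : Type*} [Group G] [Finite G] {C N M : Subgroup G} [hN : N.Normal]
    {K : Nat.Primes → Subgroup G} (hK : IsComplementSystem K) (h : Red C K)
    (hC : Group.IsNilpotent C) (q : ℕ) (hq : q.Prime) (hNq : IsPGroup q N) (hM : C ⊔ N = M) :
    IsComplementSystem (fun p => (K p).subgroupOf M) := by
  intro p
  have hpf := Fact.mk p.2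
  have hqf := Fact.mk hq
  -- the index is a power of `p`
  have h1 : ∃ k, ((K p).subgroupOf M).index = (p : ℕ) ^ k := by
    obtain ⟨a, ha⟩ := H30.Nil2.index_pPrimeCore (G := C) p
    have h3 := h.map_pPrimeCore_le p
    have h4 : ((pPrimeCore p C).map C.subtype).relIndex C = (p : ℕ) ^ a := by
      rw [← ha, Subgroup.relIndex, Subgroup.subgroupOf,
        Subgroup.comap_map_eq_self_of_injective C.subtype_injective]
    set C' := (pPrimeCore p C).map C.subtype with hC'
    have hC'C : C' ≤ C := map_subtype_le _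
    suffices h5 : ∃ k, (K p).relIndex M ∣ (p : ℕ) ^ k by
      obtain ⟨k, hk⟩ := h5
      obtain ⟨m, -, hm⟩ := (Nat.dvd_prime_pow p.2).1 hk
      exact ⟨m, hm⟩
    obtain ⟨b, hb⟩ := IsPGroup.iff_card.1 hNq
    by_cases hpq : (p : ℕ) = q
    · refine ⟨a + b, ?_⟩
      have h6 : (K p).relIndex M ∣ C'.relIndex M := Subgroup.relIndex_dvd_of_le_left _ h3
      refine h6.trans ?_
      rw [← Subgroup.relIndex_mul_relIndex C' C M hC'C (hM ▸ le_sup_left), h4, pow_add]
      refine Nat.mul_dvd_mul_left _ ?_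
      rw [← hM, ← H11.SubnormalMore.relIndex_sup_of_normal, hpq, ← hb]
      exact Subgroup.relIndex_dvd_card _ _
    · have hNK : N ≤ K p := by
        rw [← Subgroup.relIndex_eq_one]
        have h6 : (K p).relIndex N ∣ q ^ b := by
          rw [← hb]; exact Subgroup.relIndex_dvd_card _ _
        have h7 : (K p).relIndex N ∣ (p : ℕ) ^ (Nat.card G).factorization p := by
          rw [← hK p, H11.SubnormalMore.relIndex_sup_of_normal]
          exact Subgroup.relIndex_dvd_index_of_le le_sup_left
        exact Nat.eq_one_of_dvd_coprimes (Nat.Coprime.pow _ _ ((Nat.coprime_primes hq p.2).2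
          (Ne.symm hpq))) h6 h7
      refine ⟨a, ?_⟩
      have h6 : (K p).relIndex M ∣ (C' ⊔ N).relIndex M :=
        Subgroup.relIndex_dvd_of_le_left _ (sup_le h3 hNK)
      refine h6.trans ?_
      have h7 := H70.PiSep.relIndex_map_dvd (QuotientGroup.mk' N) C' C
      rw [Subgroup.relIndex_map_map, QuotientGroup.ker_mk', hM, h4] at h7
      exact h7
  obtain ⟨k, hk⟩ := h1
  have h2 : ¬ (p : ℕ) ∣ Nat.card ((K p).subgroupOf M) := by
    intro hd
    have h3 : Nat.card ((K p).subgroupOf M) ∣ Nat.card (K p) :=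
      Subgroup.card_comap_dvd_of_injective _ M.subtype M.subtype_injective
    have h4 := H11.SystemNormalizer.card_coprime hK p
    exact (Nat.Prime.coprime_iff_not_dvd p.2).1 h4.symm (hd.trans h3)
  have h3 := ((K p).subgroupOf M).card_mul_index
  rw [hk] at h3
  change ((K p).subgroupOf M).index = _
  rw [hk, ← h3, Nat.factorization_mul Nat.card_pos.ne' (pow_pos p.2.pos _).ne',
    Nat.Prime.factorization_pow p.2]
  simp [Nat.factorization_eq_zero_of_not_dvd h2]

theorem main (n : ℕ) : ∀ (G : Type u) [Group G] [Finite G], Nat.card G = n → Group.IsSolvable G →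
    ∀ (C : Subgroup G) (K : Nat.Primes → Subgroup G), IsCarter C → IsComplementSystem K →
      Red C K → systemNormalizer K ≤ C := by
  induction n using Nat.strong_induction_on with
  | _ n ih =>
    intro G _ _ hn hsol C K hC hK hR
    by_cases hnil : Group.IsNilpotent G
    · rw [hC.eq_top hnil]; exact le_top
    have hnt : Nontrivial G := by
      rw [← not_subsingleton_iff_nontrivial]
      intro h
      exact hnil inferInstance
    obtain ⟨N, ⟨hNn, hNb⟩, hNmin⟩ : ∃ N : Subgroup G, (N.Normal ∧ N ≠ ⊥) ∧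
        ∀ M : Subgroup G, M.Normal → M ≤ N → M = ⊥ ∨ M = N := by
      obtain ⟨N, hN⟩ := (Set.toFinite {N : Subgroup G | N.Normal ∧ N ≠ ⊥}).exists_minimal
        ⟨⊤, inferInstance, top_ne_bot⟩
      refine ⟨N, hN.prop, fun M hM hMN => ?_⟩
      by_cases h : M = ⊥
      · exact Or.inl h
      · exact Or.inr (le_antisymm hMN (hN.le_of_le ⟨hM, h⟩ hMN))
    obtain ⟨hNc, p, hp, hNp⟩ := H1.Solv.minimal_normal_elementary hsol N hNb hNmin
    have := Fact.mk hp
    have hNpg : IsPGroup p N := fun x => ⟨1, by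
      rw [pow_one]; exact Subtype.ext (hNp x x.2)⟩
    have hcardN : 1 < Nat.card N := (one_lt_card_iff_ne_bot N).mpr hNb
    have hlt : Nat.card (G ⧸ N) < n := by
      rw [← hn, card_eq_card_quotient_mul_card_subgroup N]
      have : 0 < Nat.card (G ⧸ N) := Nat.card_pos
      nlinarith
    set D := systemNormalizer K with hD
    have hCm : IsCarter (C.map (QuotientGroup.mk' N)) :=
      hC.map_mk fun _ => (H1.Carter.main _ _ rfl inferInstance).2
    -- D ≤ C N
    have hDCN : D ≤ C ⊔ N := by
      have h1 := ih _ hlt (G ⧸ N) rfl inferInstance _ _ hCm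
        (H11.SystemNormalizer.map_system K hK N) (hR.map N)
      rw [H11.SystemNormalizer.systemNormalizer_map hsol K hK N] at h1
      have h2 := (Subgroup.gc_map_comap (QuotientGroup.mk' N) _ _).1 h1
      rwa [comap_map_eq, QuotientGroup.ker_mk'] at h2
    by_cases htop : C ⊔ N = ⊤
    · by_cases hNC : N ≤ C
      · rw [sup_eq_left.mpr hNC] at htop
        rw [htop]; exact le_top
      have hinf := H1.Carter.inf_eq_bot hNn hNc hNmin htop hNC
      have hcC := H1.Carter.isComplement'_of htop hinf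
      have hDn : D ≤ normalizer (K ⟨p, hp⟩ : Set G) :=
        iInf_le (fun p : Nat.Primes => normalizer (K p : Set G)) ⟨p, hp⟩
      obtain ⟨k, hk⟩ := IsPGroup.iff_card.mp hNpg
      have hCnil := hC.1
      obtain ⟨b, hb⟩ := H30.Nil2.index_pPrimeCore (G := C) p
      -- K p is the p-complement of C
      set Q : Subgroup G := (pPrimeCore p C).map C.subtype with hQdef
      have hQC : Q ≤ C := map_subtype_le _
      have hCQ : C ≤ normalizer (Q : Set G) := by
        apply H1.Coprime.le_normalizer_of_conj_mem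
        rintro h hh k ⟨k', hk', rfl⟩
        exact ⟨⟨h, hh⟩ * k' * ⟨h, hh⟩⁻¹,
          (inferInstance : (pPrimeCore p C).Normal).conj_mem k' hk' ⟨h, hh⟩, rfl⟩
      have hQK : Q = K ⟨p, hp⟩ := by
        have h1 : Q ≤ K ⟨p, hp⟩ := hR.map_pPrimeCore_le ⟨p, hp⟩
        have h2 : Q.relIndex (K ⟨p, hp⟩) ∣ Nat.card (K ⟨p, hp⟩) := Subgroup.relIndex_dvd_card _ _
        have h3 : Q.relIndex (K ⟨p, hp⟩) ∣ p ^ (b + k) := by
          have h4 : Q.index = p ^ (b + k) := by
            have h5 : Q.relIndex C = p ^ b := by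
              rw [← hb, Subgroup.relIndex, Subgroup.subgroupOf, hQdef,
                Subgroup.comap_map_eq_self_of_injective C.subtype_injective]
            rw [← Subgroup.relIndex_mul_index hQC, h5, hcC.symm.index_eq_card, hk, pow_add]
          rw [← h4]
          exact Subgroup.relIndex_dvd_index_of_le h1
        have h4 := H11.SystemNormalizer.card_coprime hK ⟨p, hp⟩
        have h5 : Q.relIndex (K ⟨p, hp⟩) = 1 :=
          Nat.eq_one_of_dvd_coprimes (Nat.Coprime.pow_right _ h4) h2 h3
        exact le_antisymm h1 (Subgroup.relIndex_eq_one.1 h5)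
      rw [← hQK] at hDn
      rcases H1.Carter.eq_bot_or_eq (X := normalizer (Q : Set G) ⊓ N) hNc hNmin htop inf_le_right (by
        intro a ha k hk
        obtain ⟨h2, h3⟩ := mem_inf.mp hk
        exact mem_inf.mpr ⟨mul_mem (mul_mem (hCQ ha) h2) (inv_mem (hCQ ha)),
          hNn.conj_mem k h3 a⟩) with h | h
      · have hsup : normalizer (Q : Set G) ⊔ N = ⊤ := by
          rw [eq_top_iff, ← htop]
          exact sup_le_sup_right hCQ N
        have hc := H1.Carter.isComplement'_of hsup h
        have hcards : Nat.card (normalizer (Q : Set G)) = Nat.card C := by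
          have h1 := hc.card_mul_card
          rw [← hcC.card_mul_card] at h1
          exact Nat.eq_of_mul_eq_mul_right Nat.card_pos h1
        have hC' : C = normalizer (Q : Set G) := eq_of_le_of_card_ge hCQ (by rw [hcards])
        rw [hC']; exact hDn
      · exfalso
        have hNQ : N ≤ normalizer (Q : Set G) := by rw [← h]; exact inf_le_left
        have hQnorm : Q.Normal := by
          rw [← normalizer_eq_top_iff, eq_top_iff, ← htop]
          exact sup_le hCQ hNQ
        have hGQ : Group.IsNilpotent (G ⧸ Q) := by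
          have h1 : IsPGroup p (G ⧸ Q) := by
            apply IsPGroup.of_card (n := (Nat.card G).factorization p)
            rw [← Subgroup.index_eq_card, hQK, hK ⟨p, hp⟩]
          exact h1.isNilpotent
        have h2 : normalizer (C.map (QuotientGroup.mk' Q) : Set (G ⧸ Q)) =
            C.map (QuotientGroup.mk' Q) := by
          have h3 : (C.map (QuotientGroup.mk' Q)).comap (QuotientGroup.mk' Q) = C := by
            rw [comap_map_eq, QuotientGroup.ker_mk', sup_eq_left.mpr hQC]
          have h4 := comap_normalizer_eq_of_surjective (C.map (QuotientGroup.mk' Q))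
            (QuotientGroup.mk'_surjective Q)
          rw [h3, hC.2] at h4
          rw [← map_comap_eq_self_of_surjective (QuotientGroup.mk'_surjective Q)
            (normalizer (C.map (QuotientGroup.mk' Q) : Set (G ⧸ Q))), h4]
        have h5 := normalizerCondition_iff_only_full_group_self_normalizing.mp
          (Group.normalizerCondition_of_isNilpotent (G := G ⧸ Q)) _ h2
        have h6 := congrArg (Subgroup.comap (QuotientGroup.mk' Q)) h5
        rw [comap_map_eq, QuotientGroup.ker_mk', comap_top, sup_eq_left.mpr hQC] at h6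
        apply hNC
        rw [h6]; exact le_top
    · -- restrict to C N
      obtain ⟨M, hM⟩ : ∃ M, C ⊔ N = M := ⟨_, rfl⟩
      rw [hM] at hDCN htop
      have hCM : C ≤ M := by rw [← hM]; exact le_sup_left
      have hltM : Nat.card M < n := by
        rw [← hn]
        refine lt_of_le_of_ne (card_le_card_group M) ?_
        intro h
        exact htop ((card_eq_iff_eq_top M).mp h)
      have h1 := ih _ hltM M rfl inferInstance _ _ (hC.subgroupOf hCM)
        (restrict hK hR hC.1 p hp hNpg hM) (hR.subgroupOf M)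
      intro x hx
      have hxM : x ∈ M := hDCN hx
      have h2 : (⟨x, hxM⟩ : M) ∈ systemNormalizer (fun p => (K p).subgroupOf M) := by
        unfold systemNormalizer
        rw [mem_iInf]
        intro p
        have h3 : x ∈ normalizer (K p : Set G) := (iInf_le (fun p : Nat.Primes => normalizer (K p : Set G)) p) hx
        rw [mem_normalizer_iff] at h3 ⊢
        intro y
        rw [mem_subgroupOf, mem_subgroupOf]
        exact h3 y
      exact mem_subgroupOf.1 (h1 h2)

theorem le_of_red {G : Type*} [Group G] [Finite G] (hs : Group.IsSolvable G) {C : Subgroup G}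
    {K : Nat.Primes → Subgroup G} (hC : IsCarter C) (hK : IsComplementSystem K) (hR : Red C K) :
    systemNormalizer K ≤ C :=
  main _ G rfl hs C K hC hK hR

theorem first {G : Type*} [Group G] [Finite G] (hs : Group.IsSolvable G) (C : Subgroup G)
    (hC : IsCarter C) : ∃ K, IsComplementSystem K ∧ systemNormalizer K ≤ C := by
  obtain ⟨K, hK, hR⟩ := exists_system hs hC.1
  exact ⟨K, hK, le_of_red hs hC hK hR⟩

theorem smul_systemNormalizer {G : Type*} [Group G] {K L : Nat.Primes → Subgroup G} {g : G}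
    (h : ∀ p, MulAut.conj g • K p = L p) {x : G} (hx : x ∈ systemNormalizer L) :
    g⁻¹ * x * g ∈ systemNormalizer K := by
  unfold systemNormalizer at hx ⊢
  rw [mem_iInf] at hx ⊢
  intro p
  have h1 := hx p
  rw [← h p, mem_normalizer_iff] at h1
  rw [mem_normalizer_iff]
  intro y
  have h2 := h1 (g * y * g⁻¹)
  rw [H1.SZ.mem_conj_smul, H1.SZ.mem_conj_smul] at h2
  have e1 : g⁻¹ * (g * y * g⁻¹) * g = y := by group
  have e2 : g⁻¹ * (x * (g * y * g⁻¹) * x⁻¹) * g = g⁻¹ * x * g * y * (g⁻¹ * x * g)⁻¹ := by group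
  rwa [e1, e2] at h2

theorem second {G : Type*} [Group G] [Finite G] (hs : Group.IsSolvable G)
    (K : Nat.Primes → Subgroup G) (hK : IsComplementSystem K) :
    ∃ C, IsCarter C ∧ systemNormalizer K ≤ C := by
  obtain ⟨C, hC⟩ := (H1.Carter.main _ G rfl hs).1
  obtain ⟨L, hL, hLC⟩ := first hs C hC
  obtain ⟨g, hg⟩ := H11.SystemNormalizer.conj_systems hs L K hL hK
  refine ⟨MulAut.conj g • C, hC.smul g, fun x hx => ?_⟩
  rw [H1.SZ.mem_conj_smul]
  exact hLC (smul_systemNormalizer hg hx)

/-- elements of order prime to `p` normalizing `K p` lie in `K p`. -/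
theorem mem_of_mem_normalizer {G : Type*} [Group G] [Finite G] {K : Nat.Primes → Subgroup G}
    (hK : IsComplementSystem K) (p : Nat.Primes) {x : G} (hx : x ∈ normalizer (K p : Set G))
    (hxp : (orderOf x).Coprime p) : x ∈ K p := by
  have h1 : (⟨x, hx⟩ : normalizer (K p : Set G)) ∈ (K p).subgroupOf (normalizer (K p : Set G)) := by
    rw [← QuotientGroup.eq_one_iff, ← orderOf_eq_one_iff]
    have h2 : orderOf ((⟨x, hx⟩ : normalizer (K p : Set G)) :
        normalizer (K p : Set G) ⧸ (K p).subgroupOf (normalizer (K p : Set G))) ∣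
          (p : ℕ) ^ (Nat.card G).factorization p := by
      refine (_root_.orderOf_dvd_natCard _).trans ?_
      rw [← Subgroup.index_eq_card, ← hK p]
      exact Subgroup.relIndex_dvd_index_of_le le_normalizer
    have h3 : orderOf ((⟨x, hx⟩ : normalizer (K p : Set G)) :
        normalizer (K p : Set G) ⧸ (K p).subgroupOf (normalizer (K p : Set G))) ∣ orderOf x := by
      rw [← Subgroup.orderOf_mk x hx]
      exact orderOf_map_dvd (QuotientGroup.mk' _) _
    exact Nat.eq_one_of_dvd_coprimes (Nat.Coprime.pow_right _ hxp) h3 h2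
  exact h1

/-- `p'`-elements of a normal nilpotent subgroup lie in `K p`. -/
theorem mem_of_mem_normal {G : Type*} [Group G] [Finite G] {K : Nat.Primes → Subgroup G}
    (hK : IsComplementSystem K) (p : Nat.Primes) {F : Subgroup G} [hFn : F.Normal]
    (hF : Group.IsNilpotent F) {x : G} (hx : x ∈ F) (hxp : (orderOf x).Coprime p) : x ∈ K p := by
  have hpf := Fact.mk p.2
  have h1 : (⟨x, hx⟩ : F) ∈ pPrimeCore p F := mem_pPrimeCore (by rwa [Subgroup.orderOf_mk])
  set N : Subgroup G := (pPrimeCore p F).map F.subtype with hN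
  have hNn : N.Normal := by
    rw [hN, H1.Cores.map_subtype_pPrimeCore]; infer_instance
  have h2 : N ≤ K p := by
    rw [← Subgroup.relIndex_eq_one]
    have h6 : (K p).relIndex N ∣ Nat.card N := Subgroup.relIndex_dvd_card _ _
    have h7 : (K p).relIndex N ∣ (p : ℕ) ^ (Nat.card G).factorization p := by
      rw [← hK p, H11.SubnormalMore.relIndex_sup_of_normal]
      exact Subgroup.relIndex_dvd_index_of_le le_sup_left
    have h8 : (Nat.card N).Coprime p := by
      rw [hN, card_map_of_injective F.subtype_injective]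
      exact H1.Cores.coprime_card_pPrimeCore _
    exact Nat.eq_one_of_dvd_coprimes (Nat.Coprime.pow_right _ h8) h6 h7
  exact h2 ⟨⟨x, hx⟩, h1, rfl⟩

theorem eq_pPrimeCore {G : Type*} [Group G] [Finite G] [Group.IsNilpotent G]
    {K : Nat.Primes → Subgroup G} (hK : IsComplementSystem K) (p : Nat.Primes) :
    K p = pPrimeCore p G := by
  have hpf := Fact.mk p.2
  have h1 : K p ≤ pPrimeCore p G := by
    intro x hx
    refine mem_pPrimeCore ?_
    refine Nat.Coprime.coprime_dvd_left ?_ (H11.SystemNormalizer.card_coprime hK p)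
    rw [← Subgroup.orderOf_mk x hx]
    exact _root_.orderOf_dvd_natCard _
  refine le_antisymm h1 ?_
  rw [← Subgroup.relIndex_eq_one]
  have h2 : (K p).relIndex (pPrimeCore p G) ∣ Nat.card (pPrimeCore p G) :=
    Subgroup.relIndex_dvd_card _ _
  have h3 : (K p).relIndex (pPrimeCore p G) ∣ (p : ℕ) ^ (Nat.card G).factorization p := by
    rw [← hK p]
    exact Subgroup.relIndex_dvd_index_of_le h1
  exact Nat.eq_one_of_dvd_coprimes (Nat.Coprime.pow_right _ (H1.Cores.coprime_card_pPrimeCore _)) h2 h3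

theorem systemNormalizer_eq_top {G : Type*} [Group G] [Finite G] [Group.IsNilpotent G]
    {K : Nat.Primes → Subgroup G} (hK : IsComplementSystem K) : systemNormalizer K = ⊤ := by
  rw [eq_top_iff]
  refine le_iInf fun p => ?_
  rw [eq_pPrimeCore hK p, normalizer_eq_top]

theorem orderOf_conj {G : Type*} [Group G] (g x : G) : orderOf (g * x * g⁻¹) = orderOf x := by
  have := MulEquiv.orderOf_eq (MulAut.conj g) x
  rw [← this]; rfl

theorem self_normalizing {G : Type*} [Group G] [Finite G] (F : Subgroup G) [hFn : F.Normal]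
    (hF : Group.IsNilpotent F) (hGF : Group.IsNilpotent (G ⧸ F)) (hs : Group.IsSolvable G)
    (K : Nat.Primes → Subgroup G) (hK : IsComplementSystem K) :
    normalizer (systemNormalizer K : Set G) = systemNormalizer K := by
  apply le_antisymm _ le_normalizer
  have hmap := H11.SystemNormalizer.systemNormalizer_map hs K hK F
  rw [systemNormalizer_eq_top (H11.SystemNormalizer.map_system K hK F)] at hmap
  obtain ⟨D, hD⟩ : ∃ D, D = systemNormalizer K := ⟨_, rfl⟩
  rw [← hD] at hmap ⊢
  have hDn : ∀ p, D ≤ normalizer (K p : Set G) := fun p => by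
    rw [hD]
    exact iInf_le (fun p : Nat.Primes => normalizer (K p : Set G)) p
  -- G = F D
  have hFD : ∀ g : G, ∃ d ∈ D, QuotientGroup.mk' F d = QuotientGroup.mk' F g := by
    intro g
    have h1 : QuotientGroup.mk' F g ∈ D.map (QuotientGroup.mk' F) := by rw [← hmap]; trivial
    exact h1
  have hmk : ∀ a b : G, QuotientGroup.mk' F a = QuotientGroup.mk' F b → b * a⁻¹ ∈ F := by
    intro a b h
    rw [← QuotientGroup.eq_one_iff]
    change QuotientGroup.mk' F (b * a⁻¹) = 1
    rw [map_mul, map_inv, h, mul_inv_cancel]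
  intro x hx
  rw [hD]
  unfold systemNormalizer
  rw [mem_iInf]
  intro p
  have hpf := Fact.mk p.2
  obtain ⟨d, hd, hdx⟩ := hFD x
  have hfF := hmk _ _ hdx
  have hfN : x * d⁻¹ ∈ normalizer (D : Set G) := mul_mem hx (inv_mem (le_normalizer hd))
  suffices h : x * d⁻¹ ∈ normalizer (K p : Set G) by
    have := mul_mem h (hDn p hd)
    rwa [inv_mul_cancel_right] at this
  obtain ⟨f, hf⟩ : ∃ f, f = x * d⁻¹ := ⟨_, rfl⟩
  rw [← hf] at hfF hfN ⊢
  obtain ⟨k, t, ht, hkt⟩ := Nat.exists_eq_pow_mul_and_not_dvd (orderOf_pos f).ne' p p.2.ne_one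
  have htp : t.Coprime p := ((Nat.Prime.coprime_iff_not_dvd p.2).2 ht).symm
  have hco : ((p : ℕ) ^ k).Coprime t := Nat.Coprime.pow_left k htp.symm
  obtain ⟨m, hm1, hm2⟩ := Nat.chineseRemainder hco 0 1
  obtain ⟨n, hn1, hn2⟩ := Nat.chineseRemainder hco 1 0
  have hfmn : f = f ^ n * f ^ m := by
    rw [← pow_add]
    have h1 : n + m ≡ 1 [MOD (p : ℕ) ^ k * t] :=
      (Nat.modEq_and_modEq_iff_modEq_mul hco).1 ⟨hn1.add hm1, by simpa using hn2.add hm2⟩
    have h2 : f ^ 1 = f ^ (n + m) := by
      rw [pow_eq_pow_iff_modEq, hkt]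
      exact h1.symm
    rwa [pow_one] at h2
  have hv : f ^ m ∈ K p := by
    refine mem_of_mem_normal hK p hF (pow_mem hfF m) ?_
    have h3 : orderOf (f ^ m) ∣ t := by
      rw [orderOf_dvd_iff_pow_eq_one, ← pow_mul, ← orderOf_dvd_iff_pow_eq_one, hkt]
      exact Nat.mul_dvd_mul_right ((Nat.modEq_zero_iff_dvd).1 hm1) t
    exact Nat.Coprime.coprime_dvd_left h3 htp
  obtain ⟨a, ha⟩ : ∃ a, orderOf (f ^ n) = (p : ℕ) ^ a := by
    have h3 : orderOf (f ^ n) ∣ (p : ℕ) ^ k := by
      rw [orderOf_dvd_iff_pow_eq_one, ← pow_mul, ← orderOf_dvd_iff_pow_eq_one, hkt, mul_comm n]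
      exact Nat.mul_dvd_mul_left _ ((Nat.modEq_zero_iff_dvd).1 hn2)
    obtain ⟨a, -, ha⟩ := (Nat.dvd_prime_pow p.2).1 h3
    exact ⟨a, ha⟩
  have hu : f ^ n ∈ normalizer (K p : Set G) := by
    have hufF : f ^ n ∈ F := pow_mem hfF n
    have huN : f ^ n ∈ normalizer (D : Set G) := pow_mem hfN n
    obtain ⟨u, hu⟩ : ∃ u, u = f ^ n := ⟨_, rfl⟩
    rw [← hu] at ha hufF huN ⊢
    apply Basic.mem_normalizer_of_conj
    intro y hy
    have hyo : (orderOf y).Coprime p := by
      refine Nat.Coprime.coprime_dvd_left ?_ (H11.SystemNormalizer.card_coprime hK p)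
      rw [← Subgroup.orderOf_mk y hy]
      exact _root_.orderOf_dvd_natCard _
    obtain ⟨e, he, hey⟩ := hFD y
    obtain ⟨s, hs1, hs2⟩ := exists_pow (p := p) (QuotientGroup.mk' F) e (by
      rw [hey]
      exact Nat.Coprime.coprime_dvd_left (orderOf_map_dvd _ y) hyo)
    have h1 : y * (e ^ s)⁻¹ ∈ F := hmk _ _ (hs1.trans hey)
    have h2 : e ^ s ∈ K p := mem_of_mem_normalizer hK p (hDn p (pow_mem he s)) hs2
    have h3 : y * (e ^ s)⁻¹ ∈ K p := mul_mem hy (inv_mem h2)
    have h4 : (orderOf (y * (e ^ s)⁻¹)).Coprime p := by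
      refine Nat.Coprime.coprime_dvd_left ?_ (H11.SystemNormalizer.card_coprime hK p)
      rw [← Subgroup.orderOf_mk _ h3]
      exact _root_.orderOf_dvd_natCard _
    have h5 : u * (y * (e ^ s)⁻¹) = (y * (e ^ s)⁻¹) * u := by
      have h6 := H73.Nilp.commute_of_coprime (M := F) (p := p) (a := ⟨u, hufF⟩)
        (b := ⟨_, h1⟩) ⟨a, by rw [Subgroup.orderOf_mk]; exact ha⟩
        (by rw [Subgroup.orderOf_mk]; exact h4)
      exact congrArg Subtype.val h6.eq
    have h6 : u * (e ^ s) * u⁻¹ ∈ D := (mem_normalizer_iff.1 huN _).1 (pow_mem he s)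
    have h7 : u * (e ^ s) * u⁻¹ ∈ K p := by
      refine mem_of_mem_normalizer hK p (hDn p h6) ?_
      rw [orderOf_conj]; exact hs2
    have h8 : u * y * u⁻¹ = (y * (e ^ s)⁻¹) * (u * (e ^ s) * u⁻¹) := by
      calc u * y * u⁻¹ = u * (y * (e ^ s)⁻¹) * (e ^ s) * u⁻¹ := by group
        _ = (y * (e ^ s)⁻¹) * u * (e ^ s) * u⁻¹ := by rw [h5]
        _ = _ := by group
    rw [h8]
    exact mul_mem h3 h7
  rw [hfmn]
  exact mul_mem hu (le_normalizer hv)

/-- in nilpotent length two the Carter subgroups are the system normalizers. -/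
theorem carter_iff {G : Type*} [Group G] [Finite G] (F : Subgroup G) [hFn : F.Normal]
    (hF : Group.IsNilpotent F) (hGF : Group.IsNilpotent (G ⧸ F)) (hs : Group.IsSolvable G)
    (C : Subgroup G) : IsCarter C ↔ ∃ K, IsComplementSystem K ∧ C = systemNormalizer K := by
  constructor
  · intro hC
    obtain ⟨K, hK, hle⟩ := first hs C hC
    refine ⟨K, hK, ?_⟩
    have h1 : IsCarter (systemNormalizer K) :=
      ⟨H11.SystemNormalizer.isNilpotent_systemNormalizer K hK, self_normalizing F hF hGF hs K hK⟩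
    have h2 := (h1.subgroupOf hle).eq_top hC.1
    rw [subgroupOf_eq_top] at h2
    exact le_antisymm h2 hle
  · rintro ⟨K, hK, rfl⟩
    exact ⟨H11.SystemNormalizer.isNilpotent_systemNormalizer K hK,
      self_normalizing F hF hGF hs K hK⟩

end H12.CarterSys
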