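import Cfsg.Agent.Lib.H39.DB0
import Cfsg.Agent.Lib.H29.OddFinal
set_option autoImplicit false
set_option linter.all false
open MulAction H39.DA
open scoped commutatorElement
universe u v
namespace H12.B4
variable {G : Type u} {Ω : Type v} [Group G] [Finite G] [MulAction G Ω] [Finite Ω]

/-- an abelian nontrivial normal subgroup inside a solvable nontrivial normal subgroup -/
theorem exists_ab (N : Subgroup G) [hN : N.Normal] (hs : IsSolvable N) (hne : N ≠ ⊥) :
    ∃ D : Subgroup G, D.Normal ∧ D ≤ N ∧ D ≠ ⊥ ∧ ∀ x ∈ D, ∀ y ∈ D, x * y = y * x := by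
  classical
  obtain ⟨n, hn⟩ := hs.solvable
  have h0 : derivedSeries N 0 ≠ ⊥ := by
    rw [derivedSeries_zero]
    intro h1
    apply hne
    rw [Subgroup.eq_bot_iff_forall]
    intro x hx
    have : (⟨x, hx⟩ : N) ∈ (⊤ : Subgroup N) := trivial
    rw [h1, Subgroup.mem_bot] at this
    exact congrArg Subtype.val this
  have hex : ∃ k, derivedSeries N k = ⊥ := ⟨n, hn⟩
  obtain ⟨k, hk⟩ : ∃ k, Nat.find hex = k + 1 := by
    refine Nat.exists_eq_succ_of_ne_zero (fun h1 => h0 ?_)
    have := Nat.find_spec hex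
    rwa [h1] at this
  have hk1 : derivedSeries N (k + 1) = ⊥ := by rw [← hk]; exact Nat.find_spec hex
  have hk2 : derivedSeries N k ≠ ⊥ := Nat.find_min hex (by omega)
  have hchar : (derivedSeries N k).Characteristic := inferInstance
  refine ⟨(derivedSeries N k).map N.subtype, inferInstance, ?_, ?_, ?_⟩
  · rintro _ ⟨x, -, rfl⟩
    exact x.2
  · intro h1
    apply hk2
    rwa [Subgroup.map_eq_bot_iff_of_injective _ N.subtype_injective] at h1
  · rintro _ ⟨x, hx, rfl⟩ _ ⟨y, hy, rfl⟩
    have h1 : ⁅x, y⁆ ∈ derivedSeries N (k + 1) := by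
      rw [derivedSeries_succ]
      exact Subgroup.commutator_mem_commutator hx hy
    rw [hk1, Subgroup.mem_bot, commutatorElement_eq_one_iff_mul_comm] at h1
    exact congrArg Subtype.val h1

theorem core_bot (h : TT G Ω) {a : Ω} {s t : G} (hs : Inv s) (ht : Inv t) (hst : s * t = t * s) (hne : s ≠ t)
    (hsa : s • a = a) (hta : t • a = a) (h1 : ∀ x : Ω, s • x = x → t • x = x) (h2 : ∀ x : Ω, t • x = x → s • x = x)
    (h3 : ∀ x : Ω, (s * t) • x = x → t • x = x) : ∀ N : Subgroup G, N.Normal → Odd (Nat.card N) → N = ⊥ := by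
  classical
  intro N hN hodd
  by_contra hbot
  have hsol : IsSolvable N := H29.OddFinal.odd_order (G := N) hodd
  obtain ⟨D, hDn, hDN, hDb, hDc⟩ := exists_ab N hsol hbot
  -- D transitive
  have htr : ∀ c d : Ω, ∃ e ∈ D, e • c = d := by
    intro c d
    by_cases hcd : c = d
    · exact ⟨1, one_mem D, by rw [one_smul, hcd]⟩
    obtain ⟨⟨e, he⟩, he0⟩ := Subgroup.ne_bot_iff_exists_ne_one.1 hDb
    have he1 : e ≠ 1 := fun h0 => he0 (Subtype.ext h0)
    have hmv : ∃ x : Ω, e • x ≠ x := by
      by_contra hcon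
      push Not at hcon
      exact he1 (h.faith e hcon)
    obtain ⟨x, hx⟩ := hmv
    obtain ⟨g, hg1, hg2⟩ := h.tr x (e • x) c d (Ne.symm hx) hcd
    refine ⟨g * e * g⁻¹, hDn.conj_mem e he g, ?_⟩
    rw [← hg1, mul_smul, inv_smul_smul, mul_smul, hg2]
  have hreg : ∀ e ∈ D, ∀ x : Ω, e • x = x → e = 1 := by
    intro e he x hx
    refine h.faith e (fun y => ?_)
    obtain ⟨d, hd, rfl⟩ := htr x y
    rw [← mul_smul, hDc e he d hd, mul_smul, hx]
  -- fixed points and centralizers
  have hfc : ∀ g : G, g • a = a → ∀ e ∈ D, (g * e * g⁻¹ = e ↔ g • e • a = e • a) := by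
    intro g hg e he
    have hga : g⁻¹ • a = a := by rw [inv_smul_eq_iff, hg]
    constructor
    · intro h0
      calc g • e • a = (g * e * g⁻¹) • a := by rw [mul_smul, mul_smul, hga]
        _ = e • a := by rw [h0]
    · intro h0
      have h4 : e⁻¹ * (g * e * g⁻¹) ∈ D := D.mul_mem (D.inv_mem he) (hDn.conj_mem e he g)
      have h5 := hreg _ h4 a (by rw [mul_smul, mul_smul, mul_smul, hga, h0, inv_smul_smul])
      exact (inv_mul_eq_one.1 h5).symm
  have cs : ∀ e ∈ D, s * e * s⁻¹ = e → t * e * t⁻¹ = e := fun e he h0 =>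
    (hfc t hta e he).2 (h1 _ ((hfc s hsa e he).1 h0))
  have cst : ∀ e ∈ D, (s * t) * e * (s * t)⁻¹ = e → t * e * t⁻¹ = e := fun e he h0 =>
    (hfc t hta e he).2 (h3 _ ((hfc (s * t) (by rw [mul_smul, hta, hsa]) e he).1 h0))
  have hss : s * s = 1 := hs.2
  have htt : t * t = 1 := ht.2
  have hsi : s⁻¹ = s := inv_eq_of_mul_eq_one_left hss
  have hti : t⁻¹ = t := inv_eq_of_mul_eq_one_left htt
  have key : ∀ e ∈ D, t * e * t⁻¹ = e := by
    intro e he
    have m1 : s * e * s⁻¹ ∈ D := hDn.conj_mem e he s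
    have m2 : t * e * t⁻¹ ∈ D := hDn.conj_mem e he t
    have m3 : (s * t) * e * (s * t)⁻¹ ∈ D := hDn.conj_mem e he (s * t)
    set p := s * e * s⁻¹ with hp
    set q := t * e * t⁻¹ with hq
    set r := (s * t) * e * (s * t)⁻¹ with hr
    have ts : t * s = s * t := hst.symm
    -- conjugation table for t
    have tp : t * p * t⁻¹ = r := by
      rw [hp, hr]
      calc t * (s * e * s⁻¹) * t⁻¹ = (t * s) * e * (t * s)⁻¹ := by group
        _ = _ := by rw [ts]
    have tq' : t * q * t⁻¹ = e := by
      rw [hq]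
      calc t * (t * e * t⁻¹) * t⁻¹ = (t * t) * e * (t * t)⁻¹ := by group
        _ = e := by rw [htt]; group
    have sp : s * p * s⁻¹ = e := by
      rw [hp]
      calc s * (s * e * s⁻¹) * s⁻¹ = (s * s) * e * (s * s)⁻¹ := by group
        _ = e := by rw [hss]; group
    have str : (s * t) * r * (s * t)⁻¹ = e := by
      rw [hr]
      calc (s * t) * ((s * t) * e * (s * t)⁻¹) * (s * t)⁻¹ = (s * t * (s * t)) * e * (s * t * (s * t))⁻¹ := by group
        _ = e := by
          have : s * t * (s * t) = 1 := by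
            calc s * t * (s * t) = s * (t * s) * t := by group
              _ = s * (s * t) * t := by rw [ts]
              _ = (s * s) * (t * t) := by group
              _ = 1 := by rw [hss, htt, mul_one]
          rw [this]; group
    -- e * p is fixed by s
    have f1 : t * (e * p) * t⁻¹ = e * p := by
      apply cs _ (D.mul_mem he m1)
      calc s * (e * p) * s⁻¹ = (s * e * s⁻¹) * (s * p * s⁻¹) := by group
        _ = p * e := by rw [sp]
        _ = e * p := hDc _ m1 _ he
    have f2 : t * (e * r) * t⁻¹ = e * r := by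
      apply cst _ (D.mul_mem he m3)
      calc (s * t) * (e * r) * (s * t)⁻¹ = ((s * t) * e * (s * t)⁻¹) * ((s * t) * r * (s * t)⁻¹) := by group
        _ = r * e := by rw [str]
        _ = e * r := hDc _ m3 _ he
    have tr' : t * r * t⁻¹ = p := by
      rw [← tp]
      calc t * (t * p * t⁻¹) * t⁻¹ = (t * t) * p * (t * t)⁻¹ := by group
        _ = p := by rw [htt]; group
    -- f1 : q * r = e * p ; f2 : q * p = e * r
    have g1 : q * r = e * p := by
      calc q * r = (t * e * t⁻¹) * (t * p * t⁻¹) := by rw [tp]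
        _ = t * (e * p) * t⁻¹ := by group
        _ = e * p := f1
    have g2 : q * p = e * r := by
      calc q * p = (t * e * t⁻¹) * (t * r * t⁻¹) := by rw [tr']
        _ = t * (e * r) * t⁻¹ := by group
        _ = e * r := f2
    -- q² = e²
    have g3 : q * q = e * e := by
      have h5 : q * q * (r * p) = e * e * (r * p) := by
        calc q * q * (r * p) = q * (q * r) * p := by group
          _ = q * (e * p) * p := by rw [g1]
          _ = (q * e) * p * p := by group
          _ = (e * q) * p * p := by rw [hDc q m2 e he]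
          _ = e * (q * p) * p := by group
          _ = e * (e * r) * p := by rw [g2]
          _ = e * e * (r * p) := by group
      exact mul_right_cancel h5
    have hco : (orderOf (q * e⁻¹)).Coprime 2 := by
      have hm : q * e⁻¹ ∈ N := hDN (D.mul_mem m2 (D.inv_mem he))
      have h5 : orderOf (q * e⁻¹) ∣ Nat.card N := by
        have := orderOf_dvd_natCard (⟨q * e⁻¹, hm⟩ : N)
        rwa [Subgroup.orderOf_mk] at this
      exact Nat.Coprime.coprime_dvd_left h5 (Nat.coprime_two_right.2 hodd)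
    have h6 : (q * e⁻¹) ^ 2 = 1 := by
      rw [pow_two]
      calc q * e⁻¹ * (q * e⁻¹) = q * (e⁻¹ * q) * e⁻¹ := by group
        _ = q * (q * e⁻¹) * e⁻¹ := by rw [hDc e⁻¹ (D.inv_mem he) q m2]
        _ = (q * q) * (e * e)⁻¹ := by group
        _ = 1 := by rw [g3, mul_inv_cancel]
    have h7 : orderOf (q * e⁻¹) ∣ 2 := orderOf_dvd_of_pow_eq_one h6
    have h8 : orderOf (q * e⁻¹) = 1 := Nat.eq_one_of_dvd_coprimes hco (dvd_refl _) h7
    exact mul_inv_eq_one.1 (orderOf_eq_one_iff.1 h8)
  apply ht.1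
  refine h.faith t (fun x => ?_)
  obtain ⟨e, he, rfl⟩ := htr a x
  exact (hfc t hta e he).1 (key e he)

end H12.B4
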