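import Cfsg.Agent.Lib.H12.Basic

/-! Core-free maximal subgroups. -/

set_option autoImplicit false

open scoped Pointwise commutatorElement

namespace H12.Corefree

variable {G : Type*} [Group G]

theorem sup_eq_top {U : Subgroup G} (hU : IsCoatom U) (hcore : U.normalCore = ⊥)
    {K : Subgroup G} (hK : K.Normal) (hne : K ≠ ⊥) : K ⊔ U = ⊤ := by
  by_contra hcon
  have h1 : K ⊔ U = U := by
    by_contra h2
    exact hcon (hU.2 _ (lt_of_le_of_ne le_sup_right (Ne.symm h2)))
  have h3 : K ≤ U := h1 ▸ le_sup_left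
  have h4 : K ≤ U.normalCore := (Subgroup.normal_le_normalCore (hN := hK)).mpr h3
  rw [hcore] at h4
  exact hne (le_bot_iff.mp h4)

theorem exists_mul {U : Subgroup G} (hU : IsCoatom U) (hcore : U.normalCore = ⊥)
    {K : Subgroup G} (hK : K.Normal) (hne : K ≠ ⊥) (g : G) : ∃ k ∈ K, ∃ u ∈ U, k * u = g := by
  have := sup_eq_top hU hcore hK hne
  have hg : g ∈ K ⊔ U := this ▸ Subgroup.mem_top g
  exact Subgroup.mem_sup_of_normal_left.mp hg

theorem centralizer_inf_eq_bot {U : Subgroup G} (hU : IsCoatom U) (hcore : U.normalCore = ⊥)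
    {N : Subgroup G} (hN : N.Normal) (hne : N ≠ ⊥) :
    Subgroup.centralizer (N : Set G) ⊓ U = ⊥ := by
  have hn : (Subgroup.centralizer (N : Set G) ⊓ U).Normal := by
    constructor
    intro x hx g
    obtain ⟨n, hn, u, hu, rfl⟩ := exists_mul hU hcore hN hne g
    obtain ⟨hxc, hxu⟩ := Subgroup.mem_inf.mp hx
    have : (Subgroup.centralizer (N : Set G)).Normal := inferInstance
    have h1 : u * x * u⁻¹ ∈ Subgroup.centralizer (N : Set G) :=
      this.conj_mem x hxc u
    have h2 : u * x * u⁻¹ ∈ U := U.mul_mem (U.mul_mem hu hxu) (U.inv_mem hu)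
    have h3 : n * (u * x * u⁻¹) = (u * x * u⁻¹) * n := Subgroup.mem_centralizer_iff.mp h1 n hn
    have h4 : n * u * x * (n * u)⁻¹ = u * x * u⁻¹ := by
      calc n * u * x * (n * u)⁻¹ = n * (u * x * u⁻¹) * n⁻¹ := by group
        _ = u * x * u⁻¹ := by rw [h3]; group
    rw [h4]
    exact ⟨h1, h2⟩
  have h4 := (Subgroup.normal_le_normalCore (hN := hn)).mpr (inf_le_right)
  rw [hcore] at h4
  exact le_bot_iff.mp h4

/-- Dedekind: if `K ≤ C`, `K U = G`, `C ⊓ U = ⊥`, then `C = K`. -/
theorem eq_of_le {U : Subgroup G} (hU : IsCoatom U) (hcore : U.normalCore = ⊥)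
    {K C : Subgroup G} (hK : K.Normal) (hne : K ≠ ⊥) (hle : K ≤ C) (hC : C ⊓ U = ⊥) : K = C := by
  refine le_antisymm hle ?_
  intro c hc
  obtain ⟨k, hk, u, hu, rfl⟩ := exists_mul hU hcore hK hne c
  have : u ∈ C ⊓ U := ⟨by
    have := C.mul_mem (C.inv_mem (hle hk)) hc
    simpa using this, hu⟩
  rw [hC, Subgroup.mem_bot] at this
  rw [this, mul_one]; exact hk

theorem isComplement' {U : Subgroup G} (hU : IsCoatom U) (hcore : U.normalCore = ⊥)
    {K : Subgroup G} (hK : K.Normal) (hne : K ≠ ⊥) (hinf : K ⊓ U = ⊥) :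
    Subgroup.IsComplement' K U := by
  apply Subgroup.isComplement'_of_disjoint_and_mul_eq_univ
  · exact disjoint_iff.mpr hinf
  · rw [Set.eq_univ_iff_forall]
    intro g
    obtain ⟨k, hk, u, hu, e⟩ := exists_mul hU hcore hK hne g
    exact Set.mem_mul.mpr ⟨k, hk, u, hu, e⟩

/-- An abelian normal subgroup `K ≠ 1` meets a core-free maximal subgroup trivially, and is
self-centralizing. -/
theorem centralizer_eq_of_comm {U : Subgroup G} (hU : IsCoatom U) (hcore : U.normalCore = ⊥)
    {K : Subgroup G} (hK : K.Normal) (hne : K ≠ ⊥) (hcomm : K ≤ Subgroup.centralizer (K : Set G)) :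
    Subgroup.centralizer (K : Set G) = K :=
  (eq_of_le hU hcore hK hne hcomm (centralizer_inf_eq_bot hU hcore hK hne)).symm

theorem inf_eq_bot_of_comm {U : Subgroup G} (hU : IsCoatom U) (hcore : U.normalCore = ⊥)
    {K : Subgroup G} (hK : K.Normal) (hne : K ≠ ⊥) (hcomm : K ≤ Subgroup.centralizer (K : Set G)) :
    K ⊓ U = ⊥ :=
  le_bot_iff.mp ((inf_le_inf_right U hcomm).trans
    (centralizer_inf_eq_bot hU hcore hK hne).le)

/-- uniqueness: any nontrivial normal subgroup contains the abelian normal subgroup `K`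
when `K` is minimal (automatic). -/
theorem le_of_normal {U : Subgroup G} (hU : IsCoatom U) (hcore : U.normalCore = ⊥)
    {K N : Subgroup G} (hK : K.Normal) (hne : K ≠ ⊥) (hcomm : K ≤ Subgroup.centralizer (K : Set G))
    (hN : N.Normal) (hNne : N ≠ ⊥) : K ≤ N := by
  have hCK := centralizer_eq_of_comm hU hcore hK hne hcomm
  -- N ∩ K is not trivial, otherwise N centralizes K, N ≤ C(K) = K
  have h1 : N ⊓ K ≠ ⊥ := by
    intro h
    have : N ≤ Subgroup.centralizer (K : Set G) := by
      intro n hn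
      rw [Subgroup.mem_centralizer_iff]
      intro k hk
      have hh : ⁅n, k⁆ ∈ N ⊓ K := by
        refine ⟨?_, ?_⟩
        · rw [commutatorElement_def, mul_assoc, mul_assoc]
          refine N.mul_mem hn ?_
          rw [← mul_assoc]
          exact hN.conj_mem _ (N.inv_mem hn) k
        · rw [commutatorElement_def]
          exact K.mul_mem (hK.conj_mem _ hk n) (K.inv_mem hk)
      rw [h, Subgroup.mem_bot, commutatorElement_eq_one_iff_mul_comm] at hh
      exact hh.symm
    rw [hCK] at this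
    rw [inf_eq_left.mpr this] at h
    exact hNne h
  have := hN
  have := hK
  have hnn : (N ⊓ K).Normal := inferInstance
  have h2 : N ⊓ K = K := by
    refine eq_of_le hU hcore hnn h1 inf_le_right (inf_eq_bot_of_comm hU hcore hK hne hcomm)
  exact inf_eq_right.mp h2

end H12.Corefree
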