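import Cfsg.Agent.Lib.H12.AbAb
import Cfsg.Agent.Lib.H11.Supersolvable

set_option autoImplicit false

/-! Products of two cyclic groups are supersolvable. -/

namespace H12.CycCyc

open Subgroup

theorem comm_of_cyclic {G : Type*} [Group G] {A : Subgroup G} (hA : IsCyclic A) :
    ∀ x ∈ A, ∀ y ∈ A, x * y = y * x := by
  intro x hx y hy
  letI := hA.commGroup
  obtain ⟨⟨g, hg⟩, h⟩ := hA.exists_generator
  obtain ⟨n, hn⟩ := h ⟨x, hx⟩
  obtain ⟨m, hm⟩ := h ⟨y, hy⟩
  have hn' : g ^ n = x := congrArg Subtype.val hn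
  have hm' : g ^ m = y := congrArg Subtype.val hm
  rw [← hn', ← hm', ← zpow_add, ← zpow_add, add_comm]

theorem main (n : ℕ) : ∀ {G : Type*} [Group G] [Finite G] (_ : Nat.card G = n)
    (A B : Subgroup G) (_ : IsCyclic A) (_ : IsCyclic B)
    (_ : ∀ g : G, ∃ a ∈ A, ∃ b ∈ B, g = a * b), Cfsg.IsSupersolvable G := by
  induction n using Nat.strong_induction_on with
  | _ n ih =>
    intro G _ _ hn A B hA hB hAB
    rcases subsingleton_or_nontrivial G with hs | hs
    · exact H11.Supersolvable.of_subsingleton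
    obtain ⟨N, hN, hN1, hN2⟩ := AbAb.main A B (comm_of_cyclic hA) (comm_of_cyclic hB) hAB
    have hNc : IsCyclic N := by
      rcases hN2 with h | h
      · exact isCyclic_of_injective (Subgroup.inclusion h) (Subgroup.inclusion_injective h)
      · exact isCyclic_of_injective (Subgroup.inclusion h) (Subgroup.inclusion_injective h)
    apply H11.Supersolvable.of_quotient_cyclic N
    have hlt : Nat.card (G ⧸ N) < n := by
      rw [← hn, Subgroup.card_eq_card_quotient_mul_card_subgroup N]
      have h1 : 1 < Nat.card N := Subgroup.one_lt_card_iff_ne_bot N |>.2 hN1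
      exact (lt_mul_iff_one_lt_right Nat.card_pos).2 h1
    refine ih _ hlt rfl (A.map (QuotientGroup.mk' N)) (B.map (QuotientGroup.mk' N)) ?_ ?_ ?_
    · exact isCyclic_of_surjective ((QuotientGroup.mk' N).subgroupMap A)
        ((QuotientGroup.mk' N).subgroupMap_surjective A)
    · exact isCyclic_of_surjective ((QuotientGroup.mk' N).subgroupMap B)
        ((QuotientGroup.mk' N).subgroupMap_surjective B)
    · intro g
      obtain ⟨g, rfl⟩ := QuotientGroup.mk'_surjective N g
      obtain ⟨a, ha, b, hb, rfl⟩ := hAB g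
      exact ⟨_, ⟨a, ha, rfl⟩, _, ⟨b, hb, rfl⟩, map_mul _ _ _⟩

end H12.CycCyc
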