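import Mathlib

/-!
# Offender bounds: linear part (helper12, S2752)
-/

set_option autoImplicit false

namespace H12.GFB

/-! ### the basic lemma on a dihedral action -/

section lemL

variable {U : Type*} [AddCommGroup U]

theorem odd_nsmul (h2 : ∀ u : U, u + u = 0) {l : ℕ} (hl : Odd l) (u : U) : l • u = u := by
  obtain ⟨m, rfl⟩ := hl
  rw [add_nsmul, one_nsmul, mul_comm, mul_nsmul, two_nsmul, h2, zero_add]

theorem iter_fix (X : U →+ U) {u : U} (h : X u = u) (n : ℕ) : X^[n] u = u := by
  induction n with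
  | zero => rfl
  | succ n ih => rw [Function.iterate_succ_apply, h, ih]

/-- `X - 1` has trivial kernel on its range (`X` of odd order on a group of exponent 2) -/
theorem range_inj (h2 : ∀ u : U, u + u = 0) (X : U →+ U) {l : ℕ} (hl : Odd l) (hX : ∀ u, X^[l] u = u) {v : U}
    (h : X (X v - v) = X v - v) : X v - v = 0 := by
  have hs : ∀ n : ℕ, ∑ i ∈ Finset.range n, X^[i] (X v - v) = X^[n] v - v := by
    intro n
    induction n with
    | zero => simp
    | succ n ih =>
      rw [Finset.sum_range_succ, ih]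
      have h3 : X^[n] (X v - v) = X^[n+1] v - X^[n] v := by
        rw [Function.iterate_succ_apply]
        have : ∀ k : ℕ, ∀ a b : U, X^[k] (a - b) = X^[k] a - X^[k] b := by
          intro k
          induction k with
          | zero => intro a b; rfl
          | succ k ihk => intro a b; rw [Function.iterate_succ_apply, map_sub, ihk]; rfl
        exact this n _ _
      rw [h3]; abel
  have h1 := hs l
  rw [hX v, sub_self] at h1
  have h3 : ∀ i ∈ Finset.range l, X^[i] (X v - v) = X v - v := fun i _ => iter_fix X h i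
  rw [Finset.sum_congr rfl h3, Finset.sum_const, Finset.card_range, odd_nsmul h2 hl] at h1
  exact h1

theorem card_two_pow [Finite U] (h2 : ∀ u : U, u + u = 0) : ∃ n, Nat.card U = 2 ^ n := by
  have hP : IsPGroup 2 (Multiplicative U) := by
    intro g
    refine ⟨1, ?_⟩
    rw [pow_one, pow_two]
    exact h2 g.toAdd
  haveI : Fact (Nat.Prime 2) := ⟨Nat.prime_two⟩
  obtain ⟨n, hn⟩ := (IsPGroup.iff_card (G := Multiplicative U)).1 hP
  exact ⟨n, hn⟩

theorem neg_eq (h2 : ∀ u : U, u + u = 0) (u : U) : -u = u := by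
  rw [neg_eq_iff_add_eq_zero]; exact h2 u

theorem lemL [Finite U] (h2 : ∀ u : U, u + u = 0) (X A : U →+ U) {l : ℕ} (hl : l.Prime) (hl2 : l ≠ 2)
    (hX : ∀ u, X^[l] u = u) (hA : ∀ u, A (A u) = u) (hXA : ∀ u, X (A (X u)) = A u) (hne : ∃ u, X u ≠ u) :
    ∃ d, 0 < d ∧ l ∣ 2 ^ (2 * d) - 1 ∧ 2 ^ d * Nat.card {u : U // A u = u} ≤ Nat.card U := by
  classical
  haveI : Fintype U := Fintype.ofFinite U
  have hodd : Odd l := hl.odd_of_ne_two hl2
  let W : AddSubgroup U := (X - AddMonoidHom.id U).range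
  have hWmem : ∀ w, w ∈ W ↔ ∃ v, X v - v = w := by
    intro w
    exact Iff.rfl
  have hWfix : ∀ w ∈ W, X w = w → w = 0 := by
    intro w hw h
    obtain ⟨v, rfl⟩ := (hWmem w).1 hw
    exact range_inj h2 X hodd hX h
  have hWX : ∀ w ∈ W, X w ∈ W := by
    intro w hw
    obtain ⟨v, rfl⟩ := (hWmem w).1 hw
    exact (hWmem _).2 ⟨X v, by rw [map_sub]⟩
  have hWA : ∀ w ∈ W, A w ∈ W := by
    intro w hw
    obtain ⟨v, rfl⟩ := (hWmem w).1 hw
    refine (hWmem _).2 ⟨-(A (X v)), ?_⟩
    rw [map_neg, hXA, map_sub]; abel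
  -- X² w = w implies X w = w
  have hsq : ∀ w, X (X w) = w → X w = w := by
    intro w hw
    obtain ⟨m, hm⟩ := hodd
    have h3 : ∀ k : ℕ, X^[2 * k] w = w := by
      intro k
      induction k with
      | zero => rfl
      | succ k ih =>
        rw [mul_add, mul_one, Function.iterate_add_apply]
        have : X^[2] w = w := hw
        rw [this, ih]
    have h4 := hX w
    rw [hm, add_comm, Function.iterate_add_apply, h3] at h4
    exact h4
  let C : AddSubgroup U := W ⊓ (A - AddMonoidHom.id U).ker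
  have hC : ∀ c, c ∈ C ↔ c ∈ W ∧ A c = c := by
    intro c
    constructor
    · rintro ⟨h, h'⟩
      exact ⟨h, sub_eq_zero.1 h'⟩
    · rintro ⟨h, h'⟩
      exact ⟨h, sub_eq_zero.2 h'⟩
  have hc1 : Nat.card C * Nat.card C ≤ Nat.card W := by
    rw [← Nat.card_prod]
    refine Nat.card_le_card_of_injective
      (fun p : C × C => (⟨(p.1 : U) + X (p.2 : U), add_mem ((hC _).1 p.1.2).1 (hWX _ ((hC _).1 p.2.2).1)⟩ : W)) ?_
    rintro ⟨⟨c1, hc1⟩, ⟨c2, hc2⟩⟩ ⟨⟨e1, he1⟩, ⟨e2, he2⟩⟩ h
    have h1 : c1 + X c2 = e1 + X e2 := congrArg Subtype.val h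
    have hd1 : c1 - e1 ∈ C := sub_mem hc1 he1
    have hd2 : e2 - c2 ∈ C := sub_mem he2 hc2
    have h3 : c1 - e1 = X (e2 - c2) := by
      rw [map_sub, sub_eq_sub_iff_add_eq_add, h1, add_comm]
    have h4 : A (X (e2 - c2)) = X (e2 - c2) := by rw [← h3]; exact ((hC _).1 hd1).2
    have h5 : X (X (e2 - c2)) = e2 - c2 := by
      rw [← h4, hXA]; exact ((hC _).1 hd2).2
    have h6 : e2 - c2 = 0 := hWfix _ ((hC _).1 hd2).1 (hsq _ h5)
    have h7 : c1 - e1 = 0 := by rw [h3, h6, map_zero]
    have h8 : c1 = e1 := sub_eq_zero.1 h7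
    have h9 : e2 = c2 := sub_eq_zero.1 h6
    subst h8; subst h9; rfl
  -- the map A - 1 on W
  let R : AddSubgroup U := W.map (A - AddMonoidHom.id U)
  have hRC : R ≤ C := by
    rintro r ⟨w, hw, rfl⟩
    refine (hC _).2 ⟨sub_mem (hWA _ hw) hw, ?_⟩
    change A (A w - w) = A w - w
    rw [map_sub, hA, ← neg_sub, neg_eq h2]
  have hWcard : Nat.card W = Nat.card C * Nat.card R := by
    have h1 := ((A - AddMonoidHom.id U).comp W.subtype).ker.card_mul_index
    rw [AddSubgroup.index_ker] at h1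
    have h3 : Nat.card ((A - AddMonoidHom.id U).comp W.subtype).range = Nat.card R := by
      congr 1
      have : ((A - AddMonoidHom.id U).comp W.subtype).range = R := by
        rw [AddMonoidHom.range_comp, AddSubgroup.range_subtype]
      rw [this]
    have h4 : Nat.card ((A - AddMonoidHom.id U).comp W.subtype).ker = Nat.card C := by
      refine Nat.card_congr ⟨fun z => ⟨z.1.1, (hC _).2 ⟨z.1.2, sub_eq_zero.1 z.2⟩⟩,
        fun z => ⟨⟨z.1, ((hC _).1 z.2).1⟩, sub_eq_zero.2 ((hC _).1 z.2).2⟩, fun z => rfl, fun z => rfl⟩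
    rw [h3, h4] at h1
    exact h1.symm
  have hRle : Nat.card R ≤ Nat.card C := Nat.card_le_card_of_injective _ (AddSubgroup.inclusion_injective hRC)
  have hCpos : 0 < Nat.card C := Nat.card_pos
  have hRC2 : Nat.card R = Nat.card C := by
    apply le_antisymm hRle
    rw [hWcard] at hc1
    exact Nat.le_of_mul_le_mul_left hc1 hCpos
  obtain ⟨d, hd⟩ := card_two_pow (U := C) (fun u => Subtype.ext (h2 u.1))
  have hW2 : Nat.card W = 2 ^ (2 * d) := by
    rw [hWcard, hRC2, hd, two_mul, pow_add]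
  -- W is nontrivial
  obtain ⟨u, hu⟩ := hne
  have hWnt : 1 < Nat.card W := by
    haveI : Nontrivial W := ⟨⟨X u - u, (hWmem _).2 ⟨u, rfl⟩⟩, 0, by
      intro h
      exact hu (sub_eq_zero.1 (congrArg Subtype.val h))⟩
    exact Finite.one_lt_card
  have hdpos : 0 < d := by
    rcases Nat.eq_zero_or_pos d with h | h
    · rw [hW2, h] at hWnt; simp at hWnt
    · exact h
  refine ⟨d, hdpos, ?_, ?_⟩
  · -- fixed points of X on W
    haveI : Fact l.Prime := ⟨hl⟩
    let f : Function.End W := fun w => ⟨X w.1, hWX _ w.2⟩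
    have hf : ∀ n : ℕ, ∀ w : W, ((f ^ n) w : U) = X^[n] w.1 := by
      intro n
      induction n with
      | zero => intro w; rfl
      | succ n ih =>
        intro w
        rw [pow_succ]
        change (((f ^ n) (f w) : W) : U) = _
        rw [ih, Function.iterate_succ_apply]
    have hf1 : f ^ l ^ 1 = 1 := by
      rw [pow_one]
      funext w
      apply Subtype.ext
      rw [hf, hX]; rfl
    have h3 := Equiv.Perm.card_fixedPoints_modEq (α := W) (f := f) (p := l) (n := 1) hf1
    have h4 : Fintype.card (Function.fixedPoints f) = 1 := by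
      rw [Fintype.card_eq_one_iff]
      refine ⟨⟨0, ?_⟩, ?_⟩
      · apply Subtype.ext
        exact map_zero X
      · rintro ⟨w, hw⟩
        apply Subtype.ext
        apply Subtype.ext
        exact hWfix w.1 w.2 (congrArg Subtype.val hw)
    rw [h4, ← Nat.card_eq_fintype_card, hW2] at h3
    exact (Nat.modEq_iff_dvd' (Nat.one_le_two_pow)).1 h3.symm
  · have h1 := (A - AddMonoidHom.id U).ker.card_mul_index
    rw [AddSubgroup.index_ker] at h1
    have h4 : Nat.card (A - AddMonoidHom.id U).ker = Nat.card {u : U // A u = u} := by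
      refine Nat.card_congr ⟨fun z => ⟨z.1, sub_eq_zero.1 z.2⟩, fun z => ⟨z.1, sub_eq_zero.2 z.2⟩,
        fun z => rfl, fun z => rfl⟩
    have h5 : Nat.card R ≤ Nat.card (A - AddMonoidHom.id U).range := by
      refine Nat.card_le_card_of_injective _ (AddSubgroup.inclusion_injective ?_)
      rintro r ⟨w, hw, rfl⟩
      exact ⟨w, rfl⟩
    rw [← h1, h4, mul_comm]
    apply Nat.mul_le_mul_left
    rw [← hd, ← hRC2]
    exact h5

end lemL

/-! ### the main induction -/

section main

variable {G : Type*} [Group G] {V : Type*} [AddCommGroup V] [DistribMulAction G V]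

/-- the existence property of the triple `(D, a, x)` -/
def Exist (G : Type*) [Group G] : Prop :=
  ∀ A : Subgroup G, (∀ a ∈ A, ∀ b ∈ A, a * b = b * a) → (∀ a ∈ A, a * a = 1) → A ≠ ⊥ →
    ∃ D : Subgroup G, D ≤ A ∧ ∃ a ∈ A, a ∉ D ∧ ∃ x : G, (orderOf x).Prime ∧ orderOf x ≠ 2 ∧
      (∀ d ∈ D, d * x = x * d) ∧ a * x * a⁻¹ = x⁻¹ ∧
      ∀ e : ℕ, 0 < e → orderOf x ∣ 2 ^ (2 * e) - 1 → Nat.card A ^ 2 ≤ 2 ^ e * Nat.card D ^ 2

/-- the fixed points of a subgroup -/
def fixA (V : Type*) [AddCommGroup V] [DistribMulAction G V] (D : Subgroup G) : AddSubgroup V where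
  carrier := {v | ∀ d ∈ D, d • v = v}
  add_mem' := by
    intro v w hv hw d hd
    rw [smul_add, hv d hd, hw d hd]
  zero_mem' := fun d _ => smul_zero d
  neg_mem' := by
    intro v hv d hd
    rw [smul_neg, hv d hd]

theorem mem_fixA {D : Subgroup G} {v : V} : v ∈ fixA V D ↔ ∀ d ∈ D, d • v = v := Iff.rfl

theorem smul_iter (x : G) (v : V) (n : ℕ) : (fun v : V => x • v)^[n] v = x ^ n • v := by
  induction n with
  | zero => simp
  | succ n ih => rw [Function.iterate_succ_apply', ih, pow_succ', mul_smul]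

/-- an element of odd order commuting with the 2-group `D` acts non-trivially on `C_V(D)` -/
theorem exists_ne_fix [Finite G] [Finite V] (h2 : ∀ v : V, v + v = 0) (hf : ∀ g : G, (∀ v : V, g • v = v) → g = 1)
    {D : Subgroup G} (hD : IsPGroup 2 D) {x : G} (hx : Odd (orderOf x)) (hx1 : x ≠ 1)
    (hDx : ∀ d ∈ D, d * x = x * d) : ∃ v ∈ fixA V D, x • v ≠ v := by
  classical
  haveI : Fact (Nat.Prime 2) := ⟨Nat.prime_two⟩
  let X : V →+ V := DistribMulAction.toAddMonoidHom V x
  have hX : ∀ u, X^[orderOf x] u = u := by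
    intro u
    have h1 := smul_iter x u (orderOf x)
    rw [pow_orderOf_eq_one, one_smul] at h1
    exact h1
  obtain ⟨v, hv⟩ : ∃ v : V, x • v ≠ v := by
    by_contra hcon
    push Not at hcon
    exact hx1 (hf x hcon)
  let W : AddSubgroup V := (X - AddMonoidHom.id V).range
  have hWmem : ∀ w, w ∈ W ↔ ∃ v, x • v - v = w := by
    intro w
    exact Iff.rfl
  have hWfix : ∀ w ∈ W, x • w = w → w = 0 := by
    intro w hw h
    obtain ⟨v, rfl⟩ := (hWmem w).1 hw
    exact range_inj h2 X hx hX h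
  have hWD : ∀ d : D, ∀ w ∈ W, (d : G) • w ∈ W := by
    intro d w hw
    obtain ⟨v, rfl⟩ := (hWmem w).1 hw
    refine (hWmem _).2 ⟨(d : G) • v, ?_⟩
    rw [smul_sub, ← mul_smul, ← hDx d d.2, mul_smul]
  letI : MulAction D W :=
    { smul := fun d w => ⟨(d : G) • (w : V), hWD d w w.2⟩
      one_smul := fun w => Subtype.ext (one_smul G (w : V))
      mul_smul := fun c d w => Subtype.ext (mul_smul (c : G) (d : G) (w : V)) }
  have h3 := hD.card_modEq_card_fixedPoints W
  obtain ⟨n, hn⟩ := card_two_pow (U := W) (fun u => Subtype.ext (h2 u.1))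
  have hn0 : n ≠ 0 := by
    rintro rfl
    rw [pow_zero] at hn
    haveI : Subsingleton W := (Nat.card_eq_one_iff_unique.1 hn).1
    have h4 : (⟨x • v - v, (hWmem _).2 ⟨v, rfl⟩⟩ : W) = 0 := Subsingleton.elim _ _
    exact hv (sub_eq_zero.1 (congrArg Subtype.val h4))
  have h5 : 2 ∣ Nat.card (MulAction.fixedPoints D W) := by
    rw [hn] at h3
    have h6 : 2 ∣ 2 ^ n := dvd_pow_self 2 hn0
    exact (Nat.ModEq.dvd_iff h3 (dvd_refl 2)).1 h6
  have h6 : (0 : W) ∈ MulAction.fixedPoints D W := fun d => Subtype.ext (smul_zero (d : G))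
  have h7 : 1 < Nat.card (MulAction.fixedPoints D W) := by
    have : 0 < Nat.card (MulAction.fixedPoints D W) := by
      haveI : Nonempty (MulAction.fixedPoints D W) := ⟨⟨0, h6⟩⟩
      exact Nat.card_pos
    omega
  haveI : Nontrivial (MulAction.fixedPoints D W) := (Finite.one_lt_card_iff_nontrivial).1 h7
  obtain ⟨w, hw⟩ := exists_ne (⟨0, h6⟩ : MulAction.fixedPoints D W)
  refine ⟨(w.1 : V), ?_, ?_⟩
  · intro d hd
    exact congrArg Subtype.val (w.2 ⟨d, hd⟩)
  · intro h
    apply hw
    apply Subtype.ext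
    apply Subtype.ext
    exact hWfix _ w.1.2 h

theorem isPGroup_of_sq (A : Subgroup G) (hA : ∀ a ∈ A, a * a = 1) : IsPGroup 2 A := by
  intro a
  exact ⟨1, by rw [pow_one, pow_two]; exact Subtype.ext (hA a a.2)⟩

theorem bound1_aux [Finite G] [Finite V] (hE : Exist G) (h2 : ∀ v : V, v + v = 0)
    (hf : ∀ g : G, (∀ v : V, g • v = v) → g = 1) (n : ℕ) : ∀ A : Subgroup G, Nat.card A = n →
    (∀ a ∈ A, ∀ b ∈ A, a * b = b * a) → (∀ a ∈ A, a * a = 1) →
    Nat.card A ^ 2 * Nat.card (fixA V A) ≤ Nat.card V := by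
  induction n using Nat.strong_induction_on with
  | _ n ih =>
  intro A hn hAc hAs
  by_cases hA : A = ⊥
  · subst hA
    rw [Subgroup.card_bot, one_pow, one_mul]
    exact Nat.card_le_card_of_injective _ (Subtype.val_injective)
  obtain ⟨D, hDA, a, ha, haD, x, hxp, hx2, hDx, hax, hQ⟩ := hE A hAc hAs hA
  have hxodd : Odd (orderOf x) := hxp.odd_of_ne_two hx2
  have hx1 : x ≠ 1 := by
    rintro rfl
    rw [orderOf_one] at hxp
    exact Nat.not_prime_one hxp
  have hlt : Nat.card D < n := by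
    rw [← hn]
    have h1 : D < A := lt_of_le_of_ne hDA (fun h => haD (h ▸ ha))
    exact Set.Finite.card_lt_card (Set.toFinite (A : Set G)) h1
  have hD := ih (Nat.card D) hlt D rfl (fun a ha b hb => hAc a (hDA ha) b (hDA hb)) (fun a ha => hAs a (hDA ha))
  obtain ⟨v, hv, hxv⟩ := exists_ne_fix h2 hf (isPGroup_of_sq D (fun a ha => hAs a (hDA ha))) hxodd hx1 hDx
  have hXst : ∀ u ∈ fixA V D, x • u ∈ fixA V D := by
    intro u hu d hd
    rw [← mul_smul, hDx d hd, mul_smul, hu d hd]
  have hAst : ∀ u ∈ fixA V D, a • u ∈ fixA V D := by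
    intro u hu d hd
    rw [← mul_smul, hAc d (hDA hd) a ha, mul_smul, hu d hd]
  let X : fixA V D →+ fixA V D :=
    { toFun := fun u => ⟨x • (u : V), hXst u u.2⟩
      map_zero' := Subtype.ext (smul_zero x)
      map_add' := fun u w => Subtype.ext (smul_add x (u : V) (w : V)) }
  let B : fixA V D →+ fixA V D :=
    { toFun := fun u => ⟨a • (u : V), hAst u u.2⟩
      map_zero' := Subtype.ext (smul_zero a)
      map_add' := fun u w => Subtype.ext (smul_add a (u : V) (w : V)) }
  have hXit : ∀ n : ℕ, ∀ u : fixA V D, ((X^[n] u : fixA V D) : V) = x ^ n • (u : V) := by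
    intro n
    induction n with
    | zero => intro u; simp
    | succ n ih =>
      intro u
      rw [Function.iterate_succ_apply', pow_succ', mul_smul, ← ih]
      rfl
  have hxax : x * a * x = a := by
    have h1 : a * x = x⁻¹ * a := by
      rw [← hax]; group
    rw [mul_assoc, h1]; group
  obtain ⟨e, he, hle, hcard⟩ := lemL (U := fixA V D) (fun u => Subtype.ext (h2 u.1)) X B hxp hx2
    (fun u => Subtype.ext (by rw [hXit, pow_orderOf_eq_one, one_smul]))
    (fun u => Subtype.ext (by
      change a • a • (u : V) = u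
      rw [← mul_smul, hAs a ha, one_smul]))
    (fun u => Subtype.ext (by
      change x • a • x • (u : V) = a • (u : V)
      rw [← mul_smul, ← mul_smul, hxax]))
    ⟨⟨v, hv⟩, fun h => hxv (congrArg Subtype.val h)⟩
  have h3 : Nat.card (fixA V A) ≤ Nat.card {u : fixA V D // B u = u} := by
    refine Nat.card_le_card_of_injective
      (fun u => ⟨⟨u.1, fun d hd => u.2 d (hDA hd)⟩, Subtype.ext (u.2 a ha)⟩) ?_
    intro u w h
    apply Subtype.ext
    have := congrArg (fun z : {u : fixA V D // B u = u} => (z.1 : V)) h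
    exact this
  calc Nat.card A ^ 2 * Nat.card (fixA V A) ≤ (2 ^ e * Nat.card D ^ 2) * Nat.card {u : fixA V D // B u = u} :=
        Nat.mul_le_mul (hQ e he hle) h3
    _ = Nat.card D ^ 2 * (2 ^ e * Nat.card {u : fixA V D // B u = u}) := by ring
    _ ≤ Nat.card D ^ 2 * Nat.card (fixA V D) := Nat.mul_le_mul_left _ hcard
    _ ≤ Nat.card V := hD

theorem bound1 [Finite G] [Finite V] (hE : Exist G) (h2 : ∀ v : V, v + v = 0)
    (hf : ∀ g : G, (∀ v : V, g • v = v) → g = 1) (A : Subgroup G)
    (hAc : ∀ a ∈ A, ∀ b ∈ A, a * b = b * a) (hAs : ∀ a ∈ A, a * a = 1) :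
    Nat.card A ^ 2 * Nat.card (fixA V A) ≤ Nat.card V :=
  bound1_aux hE h2 hf _ A rfl hAc hAs

end main

/-! ### the dual module -/

section dual

variable {W : Type*} [AddCommGroup W]

theorem dual_sep (h2 : ∀ v : W, v + v = 0) {w : W} (hw : ∀ f : W →+ ZMod 2, f w = 0) : w = 0 := by
  letI : Module (ZMod 2) W := AddCommGroup.zmodModule (fun v => by rw [two_nsmul]; exact h2 v)
  exact (Module.forall_dual_apply_eq_zero_iff (ZMod 2) w).1 (fun φ => hw φ.toAddMonoidHom)

theorem card_dual [Finite W] (h2 : ∀ v : W, v + v = 0) : Nat.card (W →+ ZMod 2) = Nat.card W := by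
  letI : Module (ZMod 2) W := AddCommGroup.zmodModule (fun v => by rw [two_nsmul]; exact h2 v)
  have e : (W →+ ZMod 2) ≃ Module.Dual (ZMod 2) W :=
    ⟨fun f => f.toZModLinearMap 2, fun f => f.toAddMonoidHom, fun f => rfl, fun f => rfl⟩
  rw [Nat.card_congr e, Module.natCard_eq_pow_finrank (K := ZMod 2), Module.natCard_eq_pow_finrank (K := ZMod 2) (V := W),
    Subspace.dual_finrank_eq]

end dual

section main2

variable {G : Type*} [Group G] {V : Type*} [AddCommGroup V] [DistribMulAction G V]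

/-- `[V, A]` -/
def comA (V : Type*) [AddCommGroup V] [DistribMulAction G V] (A : Subgroup G) : AddSubgroup V :=
  AddSubgroup.closure {w | ∃ a ∈ A, ∃ v : V, a • v - v = w}

/-- the dual action -/
def dualAct (G : Type*) [Group G] (V : Type*) [AddCommGroup V] [DistribMulAction G V] :
    DistribMulAction G (V →+ ZMod 2) where
  smul g f := f.comp (DistribMulAction.toAddMonoidHom V g⁻¹)
  one_smul f := by
    ext v
    change f ((1 : G)⁻¹ • v) = f v
    rw [inv_one, one_smul]
  mul_smul g h f := by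
    ext v
    change f ((g * h)⁻¹ • v) = f (h⁻¹ • g⁻¹ • v)
    rw [mul_inv_rev, mul_smul]
  smul_zero g := rfl
  smul_add g f f' := rfl

theorem bound2 [Finite G] [Finite V] (hE : Exist G) (h2 : ∀ v : V, v + v = 0)
    (hf : ∀ g : G, (∀ v : V, g • v = v) → g = 1) (A : Subgroup G)
    (hAc : ∀ a ∈ A, ∀ b ∈ A, a * b = b * a) (hAs : ∀ a ∈ A, a * a = 1) :
    Nat.card A ^ 2 ≤ Nat.card (comA V A) := by
  classical
  letI := dualAct G V
  have hsm : ∀ (g : G) (f : V →+ ZMod 2) (v : V), (g • f) v = f (g⁻¹ • v) := fun g f v => rfl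
  haveI : Finite (V →+ ZMod 2) := Finite.of_injective (fun f => (f : V → ZMod 2)) DFunLike.coe_injective
  have h1 := bound1 (V := V →+ ZMod 2) hE (fun f => by
      ext v
      change f v + f v = 0
      rw [← map_add, h2, map_zero])
    (fun g hg => by
      have h3 : g⁻¹ = 1 := by
        apply hf
        intro v
        rw [← sub_eq_zero]
        apply dual_sep h2
        intro f
        rw [map_sub, ← hsm, hg, sub_self]
      exact inv_eq_one.1 h3) A hAc hAs
  rw [card_dual h2] at h1
  have h3 : Nat.card (fixA (V →+ ZMod 2) A) = Nat.card (V ⧸ comA V A) := by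
    rw [← card_dual (W := V ⧸ comA V A)]
    · refine Nat.card_congr ⟨fun f => QuotientAddGroup.lift (comA V A) f.1 ?_,
        fun f => ⟨f.comp (QuotientAddGroup.mk' (comA V A)), ?_⟩, ?_, ?_⟩
      · have hle : comA V A ≤ f.1.ker := by
          rw [comA, AddSubgroup.closure_le]
          rintro w ⟨a, ha, v, rfl⟩
          change f.1 (a • v - v) = 0
          have h5 := f.2 a⁻¹ (inv_mem ha)
          have h6 := congrArg (fun φ : V →+ ZMod 2 => φ v) h5
          change f.1 ((a⁻¹)⁻¹ • v) = f.1 v at h6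
          rw [inv_inv] at h6
          rw [map_sub, h6, sub_self]
        exact hle
      · intro a ha
        ext v
        rw [hsm]
        change f (QuotientAddGroup.mk' (comA V A) (a⁻¹ • v)) = f (QuotientAddGroup.mk' (comA V A) v)
        congr 1
        rw [← sub_eq_zero, ← map_sub]
        exact (QuotientAddGroup.eq_zero_iff _).2 (AddSubgroup.subset_closure ⟨a⁻¹, inv_mem ha, v, rfl⟩)
      · intro f
        apply Subtype.ext
        ext v
        rfl
      · intro f
        ext v
        rfl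
    · intro v
      obtain ⟨v, rfl⟩ := QuotientAddGroup.mk'_surjective _ v
      rw [← map_add, h2, map_zero]
  rw [h3, AddSubgroup.card_eq_card_quotient_mul_card_addSubgroup (comA V A), mul_comm] at h1
  exact Nat.le_of_mul_le_mul_left h1 Nat.card_pos

end main2

end H12.GFB
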