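import Cfsg.Agent.Lib.H12.GFBA
import Cfsg.Agent.Lib.H51.Involves
import Cfsg.Agent.Lib.H51.S4Section3
import Cfsg.Agent.Lib.H27.GenSub

/-!
# Offender bounds: diagonal subgroups of a product permuted by an elementary abelian 2-group (helper12, S2752)
-/

set_option autoImplicit false

namespace H12.GFB

open Subgroup Cfsg

variable {G : Type*} [Group G]

/-- `S₃` from generators and relations -/
theorem involves_S3 {s r : G} (hs : s * s = 1) (hr : r ^ 3 = 1) (hr1 : r ≠ 1)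
    (hsr : s * r * s⁻¹ = r⁻¹) : Involves (Equiv.Perm (Fin 3)) G := by
  have ho : orderOf r = 3 := orderOf_eq_prime hr hr1
  have hsm : s ∉ zpowers r := by
    intro h
    obtain ⟨k, rfl⟩ := h
    have h1 : r ^ k * r * (r ^ k)⁻¹ = r := by group
    have h2 : r⁻¹ = r := by
      rw [← hsr]; exact h1
    apply hr1
    have h3 : r * r = 1 := by nth_rw 1 [← h2]; exact inv_mul_cancel r
    have h4 : r ^ 3 = r * r * r := by rw [pow_succ, pow_two]
    rw [h4, h3, one_mul] at hr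
    exact hr
  have hinj := H5.DihedralLift.lift_injective r s hs hsr hsm
  obtain ⟨e⟩ := H51.S4Section3.exists_equiv
  have h2 : Involves (DihedralGroup (orderOf r)) G :=
    H51.Involves.involves_of_injective _ hinj (H51.Involves.involves_refl _)
  rw [ho] at h2
  exact H51.Involves.involves_trans (H51.Involves.involves_of_equiv e.symm) h2

theorem conj_pow_inv {a x : G} (h : a * x * a⁻¹ = x⁻¹) (n : ℕ) : a * x ^ n * a⁻¹ = (x ^ n)⁻¹ := by
  rw [← conj_pow, h, inv_pow]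

/-- the end of the argument when `|A : D| ≤ 2` -/
theorem finish2 (hS3 : ¬ Involves (Equiv.Perm (Fin 3)) G) {A D : Subgroup G} (hAs : ∀ a ∈ A, a * a = 1)
    (hDA : D ≤ A) (hidx : Nat.card A ≤ 2 * Nat.card D) {a x : G} (ha : a ∈ A) (haD : a ∉ D) (hx : Odd (orderOf x))
    (hx1 : x ≠ 1) (hDx : ∀ d ∈ D, d * x = x * d) (hax : a * x * a⁻¹ = x⁻¹) :
    ∃ D : Subgroup G, D ≤ A ∧ ∃ a ∈ A, a ∉ D ∧ ∃ x : G, (orderOf x).Prime ∧ orderOf x ≠ 2 ∧
      (∀ d ∈ D, d * x = x * d) ∧ a * x * a⁻¹ = x⁻¹ ∧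
      ∀ e : ℕ, 0 < e → orderOf x ∣ 2 ^ (2 * e) - 1 → Nat.card A ^ 2 ≤ 2 ^ e * Nat.card D ^ 2 := by
  have hn1 : orderOf x ≠ 1 := fun h => hx1 (orderOf_eq_one_iff.1 h)
  obtain ⟨l, hl, hln⟩ := Nat.exists_prime_and_dvd hn1
  obtain ⟨m, hm⟩ := hln
  have hm0 : m ≠ 0 := by
    rintro rfl
    rw [mul_zero] at hm
    rw [hm] at hx
    exact absurd hx (by decide)
  have ho : orderOf (x ^ m) = l := by
    rw [orderOf_pow_of_dvd hm0 ⟨l, by rw [hm, mul_comm]⟩, hm, Nat.mul_div_cancel _ (Nat.pos_of_ne_zero hm0)]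
  have hl2 : l ≠ 2 := by
    rintro rfl
    rw [hm] at hx
    exact (Nat.not_odd_iff_even.2 (even_two_mul m)) hx
  refine ⟨D, hDA, a, ha, haD, x ^ m, by rw [ho]; exact hl, by rw [ho]; exact hl2, ?_, conj_pow_inv hax m, ?_⟩
  · intro d hd
    exact ((show Commute d x from hDx d hd).pow_right m).eq
  · intro e he hle
    have hl3 : l ≠ 3 := by
      rintro rfl
      refine hS3 (involves_S3 (hAs a ha) (r := x ^ m) ?_ ?_ (conj_pow_inv hax m))
      · rw [← ho]; exact pow_orderOf_eq_one _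
      · intro h
        rw [h, orderOf_one] at ho
        omega
    have he2 : 2 ≤ e := by
      by_contra hcon
      have : e = 1 := by omega
      subst this
      rw [ho] at hle
      norm_num at hle
      exact hl3 ((Nat.prime_dvd_prime_iff_eq hl Nat.prime_three).1 hle)
    have h4 : (2 : ℕ) ^ 2 ≤ 2 ^ e := Nat.pow_le_pow_right (by norm_num) he2
    calc Nat.card A ^ 2 ≤ (2 * Nat.card D) ^ 2 := Nat.pow_le_pow_left hidx 2
      _ = 2 ^ 2 * Nat.card D ^ 2 := by ring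
      _ ≤ 2 ^ e * Nat.card D ^ 2 := Nat.mul_le_mul_right _ h4

/-- **diagonal subgroups.** `D` is an elementary abelian 2-group each of whose elements `d` centralises `K` or moves
`K` to a subgroup `K^d` commuting with `K`. -/
theorem diag [Finite G] {K D : Subgroup G} (hDc : ∀ a ∈ D, ∀ b ∈ D, a * b = b * a) (hDs : ∀ a ∈ D, a * a = 1)
    (hcomm : ∀ d ∈ D, (∀ y ∈ K, d * y * d⁻¹ = y) ∨ ∀ x ∈ K, ∀ y ∈ K, x * (d * y * d⁻¹) = d * y * d⁻¹ * x) :
    ∃ φ : K →* G, (∀ k, ∀ d ∈ D, d * φ k * d⁻¹ = φ k) ∧ (∀ k : K, ∀ g ∈ K, φ k * g * (φ k)⁻¹ = k * g * (k : G)⁻¹) ∧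
      (∀ k, φ k ∈ closure {g : G | ∃ d ∈ D, ∃ y ∈ K, d * y * d⁻¹ = g}) ∧
      (∀ a : G, (∀ d ∈ D, a * d = d * a) → ∀ k k' : K, (k' : G) = a * k * a⁻¹ → a * φ k * a⁻¹ = φ k') := by
  classical
  let P : Subgroup G → Prop := fun D' => D' ≤ D ∧ (∀ d ∈ D, (∀ y ∈ K, d * y * d⁻¹ = y) → d ∈ D') ∧
    ∃ φ : K →* G, (∀ k, ∀ d ∈ D', d * φ k * d⁻¹ = φ k) ∧ (∀ k : K, ∀ g ∈ K, φ k * g * (φ k)⁻¹ = k * g * (k : G)⁻¹) ∧
      (∀ k, φ k ∈ closure {g : G | ∃ d ∈ D', ∃ y ∈ K, d * y * d⁻¹ = g}) ∧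
      (∀ a : G, (∀ d ∈ D, a * d = d * a) → ∀ k k' : K, (k' : G) = a * k * a⁻¹ → a * φ k * a⁻¹ = φ k')
  have hP0 : P (D ⊓ centralizer (K : Set G)) := by
    refine ⟨inf_le_left, ?_, K.subtype, ?_, ?_, ?_, ?_⟩
    · intro d hd hy
      refine mem_inf.2 ⟨hd, ?_⟩
      rw [mem_centralizer_iff]
      intro y hyK
      rw [← mul_inv_eq_iff_eq_mul.1 (hy y hyK)]
    · intro k d hd
      have h1 := mem_centralizer_iff.1 (mem_inf.1 hd).2 k k.2
      change d * (k : G) * d⁻¹ = k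
      rw [← h1]; group
    · intro k g hg; rfl
    · intro k
      exact subset_closure ⟨1, one_mem _, k, k.2, by simp⟩
    · intro a ha k k' h
      exact h.symm
  obtain ⟨D', hD'⟩ : ∃ D', Maximal P D' := (Set.toFinite {D' | P D'}).exists_maximal ⟨_, hP0⟩
  obtain ⟨hD'D, hB, φ, h1, h2, h3, h4⟩ := hD'.prop
  have hfin : D' = D := by
    by_contra hne
    obtain ⟨d, hd, hdD'⟩ : ∃ d ∈ D, d ∉ D' := by
      by_contra hcon
      push Not at hcon
      exact hne (le_antisymm hD'D hcon)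
    have hds := hDs d hd
    have hdi : d⁻¹ = d := inv_eq_of_mul_eq_one_left hds
    -- commuting
    have hgen : ∀ u ∈ closure {g : G | ∃ c ∈ D', ∃ y ∈ K, c * y * c⁻¹ = g}, ∀ v ∈ closure {g : G | ∃ c ∈ D', ∃ y ∈ K, c * y * c⁻¹ = g},
        u * (d * v * d⁻¹) = d * v * d⁻¹ * u := by
      have hle : closure {g : G | ∃ c ∈ D', ∃ y ∈ K, c * y * c⁻¹ = g} ≤
          centralizer (((closure {g : G | ∃ c ∈ D', ∃ y ∈ K, c * y * c⁻¹ = g}).map (MulAut.conj d).toMonoidHom : Subgroup G) : Set G) := by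
        rw [MonoidHom.map_closure, centralizer_closure, closure_le]
        rintro u ⟨c, hc, y, hy, rfl⟩
        rw [SetLike.mem_coe, mem_centralizer_iff]
        rintro v ⟨w, ⟨c', hc', y', hy', rfl⟩, rfl⟩
        change d * (c' * y' * c'⁻¹) * d⁻¹ * (c * y * c⁻¹) = (c * y * c⁻¹) * (d * (c' * y' * c'⁻¹) * d⁻¹)
        have hg : c⁻¹ * (d * c') ∈ D := mul_mem (inv_mem (hD'D hc)) (mul_mem hd (hD'D hc'))
        rcases hcomm _ hg with h | h
        · exfalso
          apply hdD'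
          have h5 := hB _ hg h
          have h6 : d = c * (c⁻¹ * (d * c')) * c'⁻¹ := by group
          rw [h6]
          exact mul_mem (mul_mem hc h5) (inv_mem hc')
        · have h5 := h y hy y' hy'
          calc d * (c' * y' * c'⁻¹) * d⁻¹ * (c * y * c⁻¹)
              = c * ((c⁻¹ * (d * c')) * y' * (c⁻¹ * (d * c'))⁻¹ * y) * c⁻¹ := by group
            _ = c * (y * ((c⁻¹ * (d * c')) * y' * (c⁻¹ * (d * c'))⁻¹)) * c⁻¹ := by rw [h5]
            _ = _ := by group
      intro u hu v hv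
      exact (mem_centralizer_iff.1 (hle hu) (d * v * d⁻¹) ⟨v, hv, rfl⟩).symm
    have hyc : ∀ y ∈ K, y ∈ closure {g : G | ∃ c ∈ D', ∃ y ∈ K, c * y * c⁻¹ = g} := fun y hy =>
      subset_closure ⟨1, one_mem _, y, hy, by simp⟩
    let D2 : Subgroup G :=
      { carrier := {g | g ∈ D ∧ (g ∈ D' ∨ g * d ∈ D')}
        mul_mem' := by
          rintro g h ⟨hg, hg'⟩ ⟨hh, hh'⟩
          refine ⟨mul_mem hg hh, ?_⟩
          rcases hg' with hg' | hg' <;> rcases hh' with hh' | hh'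
          · exact Or.inl (mul_mem hg' hh')
          · right
            rw [mul_assoc]
            exact mul_mem hg' hh'
          · right
            have : g * h * d = g * d * h := by rw [mul_assoc, hDc h hh d hd, mul_assoc]
            rw [this]
            exact mul_mem hg' hh'
          · left
            have : g * h = (g * d) * (h * d) := by
              calc g * h = g * (d * d) * h := by rw [hds, mul_one]
                _ = g * d * (d * h) := by group
                _ = g * d * (h * d) := by rw [hDc d hd h hh]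
            rw [this]
            exact mul_mem hg' hh'
        one_mem' := ⟨one_mem _, Or.inl (one_mem _)⟩
        inv_mem' := by
          rintro g ⟨hg, hg'⟩
          refine ⟨inv_mem hg, ?_⟩
          rcases hg' with hg' | hg'
          · exact Or.inl (inv_mem hg')
          · right
            have : g⁻¹ * d = (g * d)⁻¹ := by
              rw [mul_inv_rev, hdi, hDc g⁻¹ (inv_mem hg) d hd]
            rw [this]
            exact inv_mem hg' }
    have hD'2 : D' ≤ D2 := fun g hg => ⟨hD'D hg, Or.inl hg⟩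
    have hdD2 : d ∈ D2 := ⟨hd, Or.inr (by rw [hds]; exact one_mem _)⟩
    have hP2 : P D2 := by
      refine ⟨fun g hg => hg.1, fun c hc h => hD'2 (hB c hc h), ?_⟩
      let φ2 : K →* G :=
        { toFun := fun k => φ k * (d * φ k * d⁻¹)
          map_one' := by simp
          map_mul' := by
            intro x y
            rw [map_mul]
            have h5 := hgen (φ y) (h3 y) (φ x) (h3 x)
            calc φ x * φ y * (d * (φ x * φ y) * d⁻¹)
                = φ x * (φ y * (d * φ x * d⁻¹)) * (d * φ y * d⁻¹) := by group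
              _ = φ x * ((d * φ x * d⁻¹) * φ y) * (d * φ y * d⁻¹) := by rw [h5]
              _ = _ := by group }
      have hφ2 : ∀ k, φ2 k = φ k * (d * φ k * d⁻¹) := fun k => rfl
      refine ⟨φ2, ?_, ?_, ?_, ?_⟩
      · -- centralised
        have hc1 : ∀ k, ∀ c ∈ D', c * φ2 k * c⁻¹ = φ2 k := by
          intro k c hc
          rw [hφ2]
          have h5 := h1 k c hc
          have h6 : c * d = d * c := hDc c (hD'D hc) d hd
          calc c * (φ k * (d * φ k * d⁻¹)) * c⁻¹ = (c * φ k * c⁻¹) * ((c * d) * φ k * (c * d)⁻¹) := by group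
            _ = φ k * ((d * c) * φ k * (d * c)⁻¹) := by rw [h5, h6]
            _ = φ k * (d * (c * φ k * c⁻¹) * d⁻¹) := by group
            _ = _ := by rw [h5]
        have hd1 : ∀ k, d * φ2 k * d⁻¹ = φ2 k := by
          intro k
          rw [hφ2]
          calc d * (φ k * (d * φ k * d⁻¹)) * d⁻¹ = (d * φ k * d⁻¹) * ((d * d) * φ k * (d * d)⁻¹) := by group
            _ = (d * φ k * d⁻¹) * φ k := by rw [hds]; group
            _ = _ := (hgen _ (h3 k) _ (h3 k)).symm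
        intro k g hg
        obtain ⟨hgD, hg' | hg'⟩ := hg
        · exact hc1 k g hg'
        · have h5 : g = (g * d) * d := by rw [mul_assoc, hds, mul_one]
          calc g * φ2 k * g⁻¹ = (g * d) * (d⁻¹ * φ2 k * d) * (g * d)⁻¹ := by group
            _ = (g * d) * φ2 k * (g * d)⁻¹ := by
              rw [hdi]
              have h6 := hd1 k
              rw [hdi] at h6
              rw [h6]
            _ = φ2 k := hc1 k _ hg'
      · intro k g hg
        rw [hφ2]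
        have h5 := hgen g (hyc g hg) (φ k) (h3 k)
        calc φ k * (d * φ k * d⁻¹) * g * (φ k * (d * φ k * d⁻¹))⁻¹
            = φ k * ((d * φ k * d⁻¹) * g * (d * φ k * d⁻¹)⁻¹) * (φ k)⁻¹ := by group
          _ = φ k * g * (φ k)⁻¹ := by rw [← h5]; group
          _ = _ := h2 k g hg
      · intro k
        rw [hφ2]
        have hmono : closure {g : G | ∃ c ∈ D', ∃ y ∈ K, c * y * c⁻¹ = g} ≤
            closure {g : G | ∃ c ∈ D2, ∃ y ∈ K, c * y * c⁻¹ = g} :=
          closure_mono (by rintro g ⟨c, hc, y, hy, rfl⟩; exact ⟨c, hD'2 hc, y, hy, rfl⟩)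
        refine mul_mem (hmono (h3 k)) ?_
        have hle : closure {g : G | ∃ c ∈ D', ∃ y ∈ K, c * y * c⁻¹ = g} ≤
            (closure {g : G | ∃ c ∈ D2, ∃ y ∈ K, c * y * c⁻¹ = g}).comap (MulAut.conj d).toMonoidHom := by
          rw [closure_le]
          rintro g ⟨c, hc, y, hy, rfl⟩
          change d * (c * y * c⁻¹) * d⁻¹ ∈ closure {g : G | ∃ c ∈ D2, ∃ y ∈ K, c * y * c⁻¹ = g}
          exact subset_closure ⟨d * c, mul_mem hdD2 (hD'2 hc), y, hy, by group⟩
        exact hle (h3 k)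
      · intro a ha k k' hk
        rw [hφ2, hφ2]
        have h5 := h4 a ha k k' hk
        have h6 := ha d hd
        calc a * (φ k * (d * φ k * d⁻¹)) * a⁻¹ = (a * φ k * a⁻¹) * ((a * d) * φ k * (a * d)⁻¹) := by group
          _ = φ k' * ((d * a) * φ k * (d * a)⁻¹) := by rw [h5, h6]
          _ = φ k' * (d * (a * φ k * a⁻¹) * d⁻¹) := by group
          _ = _ := by rw [h5]
    have h5 := hD'.le_of_ge hP2 hD'2
    exact hdD' (h5 hdD2)
  subst hfin
  exact ⟨φ, h1, h2, h3, h4⟩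

/-- **Case u = 1**: an element of odd order commuting with `D` and inverted by `a`. -/
theorem diag_pair [Finite G] {K D : Subgroup G} (hDc : ∀ a ∈ D, ∀ b ∈ D, a * b = b * a) (hDs : ∀ a ∈ D, a * a = 1)
    (hcomm : ∀ d ∈ D, (∀ y ∈ K, d * y * d⁻¹ = y) ∨ ∀ x ∈ K, ∀ y ∈ K, x * (d * y * d⁻¹) = d * y * d⁻¹ * x)
    {a : G} (haD : ∀ d ∈ D, a * d = d * a) (haa : a * a = 1)
    (hacomm : ∀ d ∈ D, ∀ x ∈ K, ∀ y ∈ K, x * (d * a * y * (d * a)⁻¹) = d * a * y * (d * a)⁻¹ * x)
    {k : G} (hk : k ∈ K) (hkodd : Odd (orderOf k)) (hkZ : ∃ g ∈ K, k * g ≠ g * k) :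
    ∃ x : G, x ≠ 1 ∧ Odd (orderOf x) ∧ (∀ d ∈ D, d * x = x * d) ∧ a * x * a⁻¹ = x⁻¹ := by
  obtain ⟨φ, h1, h2, h3, -⟩ := diag hDc hDs hcomm
  have hai : a⁻¹ = a := inv_eq_of_mul_eq_one_left haa
  let y := φ ⟨k, hk⟩
  have hgen : closure {g : G | ∃ d ∈ D, ∃ y ∈ K, d * y * d⁻¹ = g} ≤
      centralizer (((closure {g : G | ∃ d ∈ D, ∃ y ∈ K, d * y * d⁻¹ = g}).map (MulAut.conj a).toMonoidHom : Subgroup G) : Set G) := by
    rw [MonoidHom.map_closure, centralizer_closure, closure_le]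
    rintro u ⟨c, hc, y, hy, rfl⟩
    rw [SetLike.mem_coe, mem_centralizer_iff]
    rintro v ⟨w, ⟨c', hc', y', hy', rfl⟩, rfl⟩
    change a * (c' * y' * c'⁻¹) * a⁻¹ * (c * y * c⁻¹) = (c * y * c⁻¹) * (a * (c' * y' * c'⁻¹) * a⁻¹)
    have h5 := hacomm (c⁻¹ * c') (mul_mem (inv_mem hc) hc') y hy y' hy'
    have h6 : c⁻¹ * c' * a = c⁻¹ * (a * c') := by rw [haD c' hc', mul_assoc]
    rw [h6] at h5
    calc a * (c' * y' * c'⁻¹) * a⁻¹ * (c * y * c⁻¹)
        = c * ((c⁻¹ * (a * c')) * y' * (c⁻¹ * (a * c'))⁻¹ * y) * c⁻¹ := by group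
      _ = c * (y * ((c⁻¹ * (a * c')) * y' * (c⁻¹ * (a * c'))⁻¹)) * c⁻¹ := by rw [h5]
      _ = _ := by group
  have hcom : ∀ u ∈ closure {g : G | ∃ d ∈ D, ∃ y ∈ K, d * y * d⁻¹ = g}, u * (a * y * a⁻¹) = a * y * a⁻¹ * u := by
    intro u hu
    exact (mem_centralizer_iff.1 (hgen hu) (a * y * a⁻¹) ⟨y, h3 _, rfl⟩).symm
  have hyy : y * (a * y * a⁻¹) = a * y * a⁻¹ * y := hcom y (h3 _)
  refine ⟨y⁻¹ * (a * y * a⁻¹), ?_, ?_, ?_, ?_⟩
  · -- acts on K as k⁻¹
    intro h
    obtain ⟨g, hg, hne⟩ := hkZ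
    have h5 : a * y * a⁻¹ = y := by
      calc a * y * a⁻¹ = y * (y⁻¹ * (a * y * a⁻¹)) := by group
        _ = y := by rw [h, mul_one]
    have h6 := hcom g (subset_closure ⟨1, one_mem _, g, hg, by simp⟩)
    rw [h5] at h6
    have h7 : y * g * y⁻¹ = k * g * k⁻¹ := h2 ⟨k, hk⟩ g hg
    rw [← h6] at h7
    apply hne
    have h8 : k * g * k⁻¹ = g := by rw [← h7]; group
    rw [← mul_inv_eq_iff_eq_mul]
    exact h8
  · have hy1 : y ^ orderOf k = 1 := by
      change φ ⟨k, hk⟩ ^ orderOf k = 1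
      rw [← map_pow]
      have : (⟨k, hk⟩ : K) ^ orderOf k = 1 := Subtype.ext (pow_orderOf_eq_one k)
      rw [this, map_one]
    have hay1 : (a * y * a⁻¹) ^ orderOf k = 1 := by rw [conj_pow, hy1]; group
    have hc : Commute y⁻¹ (a * y * a⁻¹) := Commute.inv_left hyy
    have h5 : (y⁻¹ * (a * y * a⁻¹)) ^ orderOf k = 1 := by
      rw [hc.mul_pow, inv_pow, hy1, hay1, inv_one, one_mul]
    exact Odd.of_dvd_nat hkodd (orderOf_dvd_of_pow_eq_one h5)
  · intro d hd
    have h5 : d * y = y * d := by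
      rw [← mul_inv_eq_iff_eq_mul]; exact h1 _ d hd
    have hc1 : Commute d y := h5
    have hc2 : Commute d a := (haD d hd).symm
    exact (hc1.inv_right.mul_right ((hc2.mul_right hc1).mul_right hc2.inv_right)).eq
  · rw [hai]
    calc a * (y⁻¹ * (a * y * a)) * a = a * y⁻¹ * a * y * (a * a) := by group
      _ = a * y⁻¹ * a * y := by rw [haa, mul_one]
      _ = (y⁻¹ * (a * y * a))⁻¹ := by
        rw [mul_inv_rev, mul_inv_rev, mul_inv_rev, inv_inv, hai]
        group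

end H12.GFB
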