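import Cfsg.Agent.Lib.H12.GFBB
import Cfsg.Agent.Lib.H26.Components
import Cfsg.Agent.Lib.H26.CompNorm
import Cfsg.Agent.Lib.H26.GenFitting
import Cfsg.Agent.Lib.H52.FStar
import Cfsg.Agent.Lib.H14.GF1

/-!
# Offender bounds: existence of the triple (helper12, S2752)
-/

set_option autoImplicit false

universe u

namespace H12.GFB

open Subgroup Cfsg H26.Components H26.CompNorm H26.GenFitting

/-- the simple groups in question satisfy `TFact` -/
def A1 : Prop := ∀ (T : Type u) [Group T] [Finite T], IsSimpleGroup T → ¬ IsMulCommutative T →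
  IsSuzukiOrPSL2OddPowerThree T → ∃ Q, H14.GF.TFact T Q

/-- elements of order two act as inner automorphisms on the simple groups in question -/
def A2 : Prop := ∀ (X : Type u) [Group X] [Finite X], ¬ Involves (Equiv.Perm (Fin 3)) X → ∀ T : Subgroup X,
  IsSimpleGroup T → ¬ IsMulCommutative T → IsSuzukiOrPSL2OddPowerThree T → ∀ a ∈ normalizer (T : Set X), a * a = 1 →
  ∃ t ∈ T, ∀ y ∈ T, a * y * a⁻¹ = t * y * t⁻¹

theorem TT_equiv {X Y : Type*} [Group X] [Group Y] (e : X ≃* Y) (h : IsSuzukiOrPSL2OddPowerThree Y) :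
    IsSuzukiOrPSL2OddPowerThree X := by
  rcases h with ⟨F, hF, hF2, m, h1, h2, ⟨f⟩⟩ | ⟨F, hF, hF2, n, h2, ⟨f⟩⟩
  · exact Or.inl ⟨F, hF, hF2, m, h1, h2, ⟨e.trans f⟩⟩
  · exact Or.inr ⟨F, hF, hF2, n, h2, ⟨e.trans f⟩⟩

variable {G : Type u} [Group G] [Finite G]

theorem fitting_le (h2 : pCore 2 G = ⊥) : fittingSubgroup G ≤ pPrimeCore 2 G := by
  haveI : Fact (Nat.Prime 2) := ⟨Nat.prime_two⟩
  refine H1.Cores.le_pPrimeCore inferInstance ?_
  exact ((Nat.Prime.coprime_iff_not_dvd Nat.prime_two).2 (H52.FStar.coprime_card_fitting h2)).symm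

theorem odd_core : ∀ z ∈ pPrimeCore 2 G, Odd (orderOf z) := by
  intro z hz
  have h1 := H1.Cores.coprime_card_pPrimeCore (G := G) 2
  have h3 : orderOf z ∣ Nat.card (pPrimeCore 2 G) := Subgroup.orderOf_dvd_natCard _ hz
  exact Odd.of_dvd_nat (Nat.coprime_two_right.1 h1) h3

theorem eq_one_of_sq {z : G} (hz : z ∈ pPrimeCore 2 G) (h : z * z = 1) : z = 1 := by
  have h1 := odd_core z hz
  have h3 : orderOf z ∣ 2 := orderOf_dvd_of_pow_eq_one (by rw [pow_two]; exact h)
  rcases (Nat.dvd_prime Nat.prime_two).1 h3 with h4 | h4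
  · exact orderOf_eq_one_iff.1 h4
  · rw [h4] at h1; exact absurd h1 (by decide)

theorem comp_exists (h2 : pCore 2 G = ⊥) {A : Subgroup G} (hAs : ∀ a ∈ A, a * a = 1)
    (hA : A ≠ ⊥) (hO : pPrimeCore 2 G ≤ centralizer (A : Set G)) :
    ∃ K : Subgroup G, IsComponent K ∧ ¬ K ≤ centralizer (A : Set G) := by
  by_contra hcon
  push Not at hcon
  apply hA
  have h3 : generalizedFittingSubgroup G ≤ centralizer (A : Set G) :=
    sup_le (sSup_le (fun K hK => hcon K hK)) ((fitting_le h2).trans hO)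
  have h4 : A ≤ centralizer (generalizedFittingSubgroup G : Set G) := le_centralizer_iff.1 h3
  have h5 : A ≤ generalizedFittingSubgroup G := h4.trans centralizer_gFitting_le
  have h6 : (generalizedFittingSubgroup G ⊓ centralizer (generalizedFittingSubgroup G : Set G)) ≤ fittingSubgroup G := by
    have hn : (generalizedFittingSubgroup G ⊓ Subgroup.centralizer (generalizedFittingSubgroup G : Set G)).Normal :=
      inferInstance
    apply H1.Cores.le_fittingSubgroup hn
    let Z := generalizedFittingSubgroup G ⊓ Subgroup.centralizer (generalizedFittingSubgroup G : Set G)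
    have h7 : ∀ a b : Z, a * b = b * a := by
      rintro ⟨a, ha⟩ ⟨b, hb⟩
      exact Subtype.ext (mem_centralizer_iff.1 (mem_inf.1 hb).2 a (mem_inf.1 ha).1)
    let _ : CommGroup Z := { (inferInstance : Group Z) with mul_comm := h7 }
    exact (inferInstance : Group.IsNilpotent Z)
  rw [eq_bot_iff]
  intro a ha
  exact mem_bot.2 (eq_one_of_sq (fitting_le h2 (h6 (mem_inf.2 ⟨h5 ha, h4 ha⟩))) (hAs a ha))

theorem card_le_of_relIndex {A D : Subgroup G} (hDA : D ≤ A) {n : ℕ} (h : D.relIndex A ≤ n) :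
    Nat.card A ≤ n * Nat.card D := by
  have h1 := Subgroup.relIndex_mul_relIndex ⊥ D A bot_le hDA
  rw [relIndex_bot_left, relIndex_bot_left] at h1
  rw [← h1, mul_comm]
  exact Nat.mul_le_mul_right _ h

/-- **Case (i)**: `A` does not centralise `O(G)` -/
theorem case_i (hS3 : ¬ Involves (Equiv.Perm (Fin 3)) G) {A : Subgroup G} (hAc : ∀ a ∈ A, ∀ b ∈ A, a * b = b * a)
    (hAs : ∀ a ∈ A, a * a = 1) (hO : ¬ pPrimeCore 2 G ≤ centralizer (A : Set G)) :
    ∃ D : Subgroup G, D ≤ A ∧ ∃ a ∈ A, a ∉ D ∧ ∃ x : G, (orderOf x).Prime ∧ orderOf x ≠ 2 ∧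
      (∀ d ∈ D, d * x = x * d) ∧ a * x * a⁻¹ = x⁻¹ ∧
      ∀ e : ℕ, 0 < e → orderOf x ∣ 2 ^ (2 * e) - 1 → Nat.card A ^ 2 ≤ 2 ^ e * Nat.card D ^ 2 := by
  haveI : Fact (Nat.Prime 2) := ⟨Nat.prime_two⟩
  have hEA : IsElementaryAbelian 2 A := by
    refine ⟨⟨⟨fun a b => Subtype.ext (hAc a a.2 b b.2)⟩⟩, fun a ha => ?_⟩
    rw [pow_two]; exact hAs a ha
  obtain ⟨B, hBA, hBi, hB⟩ : ∃ B : Subgroup G, B ≤ A ∧ B.relIndex A ≤ 2 ∧
      ¬ pPrimeCore 2 G ⊓ centralizer (B : Set G) ≤ centralizer (A : Set G) := by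
    by_contra hcon
    push Not at hcon
    apply hO
    refine H27.GenSub.le_of_hyperplanes 2 A (pPrimeCore 2 G) _ hEA ?_ ?_ hcon
    · rw [Subgroup.normalizer_eq_top]; exact le_top
    · exact (Nat.Prime.coprime_iff_not_dvd Nat.prime_two).1 (H1.Cores.coprime_card_pPrimeCore (G := G) 2).symm
  obtain ⟨y, hy, hyA⟩ := Set.not_subset.1 hB
  obtain ⟨hyO, hyB⟩ := mem_inf.1 hy
  obtain ⟨a, ha, hay⟩ : ∃ a ∈ A, a * y ≠ y * a := by
    by_contra hcon
    push Not at hcon
    exact hyA (mem_centralizer_iff.2 hcon)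
  have haB : a ∉ B := fun h => hay (mem_centralizer_iff.1 hyB a h)
  have hs := hAs a ha
  have hai : a⁻¹ = a := inv_eq_of_mul_eq_one_left hs
  have hxO : y⁻¹ * (a * y * a⁻¹) ∈ pPrimeCore 2 G :=
    mul_mem (inv_mem hyO) ((inferInstance : (pPrimeCore 2 G).Normal).conj_mem y hyO a)
  refine finish2 hS3 hAs hBA (card_le_of_relIndex hBA hBi) ha haB (x := y⁻¹ * (a * y * a⁻¹)) (odd_core _ hxO) ?_ ?_ ?_
  · intro h
    apply hay
    have : a * y * a⁻¹ = y := by
      calc a * y * a⁻¹ = y * (y⁻¹ * (a * y * a⁻¹)) := by group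
        _ = y := by rw [h, mul_one]
    rw [← mul_inv_eq_iff_eq_mul]; exact this
  · intro d hd
    have hc1 : Commute d y := mem_centralizer_iff.1 hyB d hd
    have hc2 : Commute d a := hAc d (hBA hd) a ha
    exact (hc1.inv_right.mul_right ((hc2.mul_right hc1).mul_right hc2.inv_right)).eq
  · rw [hai]
    calc a * (y⁻¹ * (a * y * a)) * a = a * y⁻¹ * a * y * (a * a) := by group
      _ = a * y⁻¹ * a * y := by rw [hs, mul_one]
      _ = (y⁻¹ * (a * y * a))⁻¹ := by
        rw [mul_inv_rev, mul_inv_rev, mul_inv_rev, inv_inv, hai]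
        group

/-- a component contains a non-central element of odd order -/
theorem exists_odd {K : Subgroup G} (hK : IsComponent K) : ∃ k ∈ K, Odd (orderOf k) ∧ ∃ g ∈ K, k * g ≠ g * k := by
  by_contra hcon
  push Not at hcon
  apply not_isSolvable_of_le hK le_rfl
  have hP : IsPGroup 2 (K ⧸ center K) := by
    intro q
    obtain ⟨k, rfl⟩ := QuotientGroup.mk'_surjective _ q
    obtain ⟨n, m, hm, hkm⟩ := Nat.exists_eq_pow_mul_and_not_dvd (orderOf_pos (k : G)).ne' 2 (by norm_num)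
    refine ⟨n, ?_⟩
    rw [← map_pow]
    refine (QuotientGroup.eq_one_iff _).2 ?_
    rw [mem_center_iff]
    intro g
    apply Subtype.ext
    have hodd : Odd (orderOf ((k : G) ^ 2 ^ n)) := by
      rw [orderOf_pow_of_dvd (by positivity) ⟨m, hkm⟩, hkm, Nat.mul_div_cancel_left _ (by positivity)]
      exact Nat.not_even_iff_odd.1 (fun h => hm (even_iff_two_dvd.1 h))
    exact (hcon ((k : G) ^ 2 ^ n) (pow_mem k.2 _) hodd g g.2).symm
  haveI : Fact (Nat.Prime 2) := ⟨Nat.prime_two⟩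
  have h1 : Group.IsNilpotent (K ⧸ center K) := hP.isNilpotent
  have h2 : Group.IsNilpotent K := Group.of_quotient_center_nilpotent h1
  infer_instance

theorem mem_normalizer_of_map {K : Subgroup G} {g : G} (h : K.map (MulAut.conj g).toMonoidHom = K) :
    g ∈ normalizer (K : Set G) := by
  have h1 : ∀ x ∈ K, g * x * g⁻¹ ∈ K := by
    intro x hx
    have : g * x * g⁻¹ ∈ K.map (MulAut.conj g).toMonoidHom := ⟨x, hx, rfl⟩
    rw [h] at this
    exact this
  rw [mem_normalizer_iff]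
  intro x
  refine ⟨h1 x, fun hx => ?_⟩
  have hx' : g * x * g⁻¹ ∈ K.map (MulAut.conj g).toMonoidHom := by rw [h]; exact hx
  obtain ⟨y, hy, hyx⟩ := hx'
  have h3 : g * y * g⁻¹ = g * x * g⁻¹ := hyx
  have h4 : y = x := mul_left_cancel (mul_right_cancel h3)
  rw [← h4]; exact hy

/-- a component is moved to a subgroup commuting with it by the elements not normalising it -/
theorem comp_move {K : Subgroup G} (hK : IsComponent K) {g : G} (hg : g ∉ normalizer (K : Set G)) :
    ∀ x ∈ K, ∀ y ∈ K, x * (g * y * g⁻¹) = g * y * g⁻¹ * x := by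
  have h1 : ⁅K, K.map (MulAut.conj g).toMonoidHom⁆ = ⊥ :=
    commutator_eq_bot_of_ne hK ((map_conj_iff g).2 hK) (fun h => hg (mem_normalizer_of_map h.symm))
  intro x hx y hy
  have h3 := mem_centralizer_iff.1 (commutator_eq_bot_iff_le_centralizer.1 h1 hx) (g * y * g⁻¹) ⟨y, hy, rfl⟩
  exact h3.symm

/-- **Case (ii), u = 1** -/
theorem case_one (hS3 : ¬ Involves (Equiv.Perm (Fin 3)) G) {A : Subgroup G} (hAc : ∀ a ∈ A, ∀ b ∈ A, a * b = b * a)
    (hAs : ∀ a ∈ A, a * a = 1) {K : Subgroup G} (hK : IsComponent K) (hKA : ¬ K ≤ centralizer (A : Set G))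
    (hN : ∀ a ∈ A, a ∈ normalizer (K : Set G) → a ∈ centralizer (K : Set G)) :
    ∃ D : Subgroup G, D ≤ A ∧ ∃ a ∈ A, a ∉ D ∧ ∃ x : G, (orderOf x).Prime ∧ orderOf x ≠ 2 ∧
      (∀ d ∈ D, d * x = x * d) ∧ a * x * a⁻¹ = x⁻¹ ∧
      ∀ e : ℕ, 0 < e → orderOf x ∣ 2 ^ (2 * e) - 1 → Nat.card A ^ 2 ≤ 2 ^ e * Nat.card D ^ 2 := by
  let P : Subgroup G → Prop := fun D => D ≤ A ∧ A ⊓ centralizer (K : Set G) ≤ D ∧ D ≠ A
  have hP0 : P (A ⊓ centralizer (K : Set G)) := by
    refine ⟨inf_le_left, le_rfl, fun h => hKA ?_⟩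
    have h1 : A ≤ centralizer (K : Set G) := by rw [← h]; exact inf_le_right
    exact le_centralizer_iff.1 h1
  obtain ⟨D, hD⟩ : ∃ D, Maximal P D := (Set.toFinite {D | P D}).exists_maximal ⟨_, hP0⟩
  obtain ⟨hDA, hBD, hne⟩ := hD.prop
  obtain ⟨a, ha, haD⟩ : ∃ a ∈ A, a ∉ D := by
    by_contra hcon
    push Not at hcon
    exact hne (le_antisymm hDA hcon)
  have hsup : D ⊔ zpowers a = A := by
    by_contra h
    have h1 : P (D ⊔ zpowers a) := ⟨sup_le hDA (zpowers_le.2 ha), hBD.trans le_sup_left, h⟩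
    exact haD (hD.le_of_ge h1 le_sup_left (mem_sup_right (mem_zpowers a)))
  have hidx : D.relIndex A ≤ 2 :=
    H27.GenSub.relIndex_le_of_le_sup_zpowers (by norm_num) hAc hDA ha (by rw [pow_two]; exact hAs a ha) hsup.ge
  obtain ⟨k, hk, hkodd, hkZ⟩ := exists_odd hK
  obtain ⟨x, hx1, hxo, hDx, hax⟩ := diag_pair (K := K) (D := D) (fun a ha b hb => hAc a (hDA ha) b (hDA hb))
    (fun a ha => hAs a (hDA ha))
    (fun d hd => by
      by_cases hdN : d ∈ normalizer (K : Set G)
      · left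
        intro y hy
        have h1 := mem_centralizer_iff.1 (hN d (hDA hd) hdN) y hy
        rw [← h1]; group
      · right
        exact comp_move hK hdN)
    (a := a) (fun d hd => hAc a ha d (hDA hd)) (hAs a ha)
    (fun d hd => by
      apply comp_move hK
      intro h
      have h1 : d * a ∈ D := hBD (mem_inf.2 ⟨mul_mem (hDA hd) ha, hN _ (mul_mem (hDA hd) ha) h⟩)
      exact haD ((D.mul_mem_cancel_left hd).1 h1))
    hk hkodd hkZ
  exact finish2 hS3 hAs hDA (card_le_of_relIndex hDA hidx) ha haD hxo hx1 hDx hax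

theorem zl_le (h2 : pCore 2 G = ⊥) : zl G ≤ pPrimeCore 2 G :=
  (show zl G ≤ fittingSubgroup G from centre_layer_le_fitting).trans (fitting_le h2)

theorem mem_zl {K : Subgroup G} (hK : IsComponent K) {k : G} (hk : k ∈ K) (h : ∀ g ∈ K, k * g = g * k) : k ∈ zl G :=
  component_centre_le_layer_centre hK (mem_inf.2 ⟨hk, mem_centralizer_iff.2 (fun g hg => (h g hg).symm)⟩)

/-- the simple group `K Z / Z` in `G / Z`, `Z = Z(E(G))` -/
theorem bar_equiv {K : Subgroup G} (hK : IsComponent K) :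
    Nonempty (K.map (QuotientGroup.mk' (zl G)) ≃* K ⧸ center K) := by
  have h1 : ((QuotientGroup.mk' (zl G)).comp K.subtype).ker = center K := by
    ext k
    rw [MonoidHom.mem_ker, MonoidHom.comp_apply]
    constructor
    · intro h
      have h3 : (k : G) ∈ zl G := (QuotientGroup.eq_one_iff _).1 h
      rw [mem_center_iff]
      intro g
      apply Subtype.ext
      exact mem_centralizer_iff.1 (mem_inf.1 h3).2 g (le_layer hK g.2)
    · intro h
      refine (QuotientGroup.eq_one_iff _).2 (mem_zl hK k.2 ?_)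
      intro g hg
      exact congrArg Subtype.val (mem_center_iff.1 h ⟨g, hg⟩).symm
  have h2 : ((QuotientGroup.mk' (zl G)).comp K.subtype).range = K.map (QuotientGroup.mk' (zl G)) := by
    rw [MonoidHom.range_comp, range_subtype]
  exact ⟨(MulEquiv.subgroupCongr h2.symm).trans
    ((QuotientGroup.quotientKerEquivRange _).symm.trans (QuotientGroup.quotientMulEquivOfEq h1))⟩

theorem simple_not_comm {K : Subgroup G} (hK : IsComponent K) : ¬ IsMulCommutative (K ⧸ center K) := by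
  intro h
  apply not_isSolvable_of_le hK le_rfl
  let _ : CommGroup (K ⧸ center K) := { (inferInstance : Group (K ⧸ center K)) with mul_comm := h.is_comm.comm }
  have h1 : Group.IsNilpotent (K ⧸ center K) := inferInstance
  have h2 : Group.IsNilpotent K := Group.of_quotient_center_nilpotent h1
  infer_instance

end H12.GFB
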