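import Cfsg.Agent.Lib.H12.GFBC

/-!
# Offender bounds: the case of a component with non-trivial normaliser action, and the theorem (helper12, S2752)
-/

set_option autoImplicit false

universe u

namespace H12.GFB

open Subgroup Cfsg H26.Components H26.CompNorm H26.GenFitting

variable {G : Type u} [Group G] [Finite G]

/-- **Case (ii), u > 1** -/
theorem case_two (hA1 : A1.{u}) (hA2 : A2.{u}) (h2 : pCore 2 G = ⊥) (hS3 : ¬ Involves (Equiv.Perm (Fin 3)) G)
    (hc : IsCompositionKGroupWith IsSuzukiOrPSL2OddPowerThree G) {A : Subgroup G}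
    (hAc : ∀ a ∈ A, ∀ b ∈ A, a * b = b * a)
    (hAs : ∀ a ∈ A, a * a = 1) (hO : pPrimeCore 2 G ≤ centralizer (A : Set G)) {K : Subgroup G} (hK : IsComponent K)
    {a0 : G} (ha0 : a0 ∈ A) (ha0N : a0 ∈ normalizer (K : Set G)) (ha0C : a0 ∉ centralizer (K : Set G)) :
    ∃ D : Subgroup G, D ≤ A ∧ ∃ a ∈ A, a ∉ D ∧ ∃ x : G, (orderOf x).Prime ∧ orderOf x ≠ 2 ∧
      (∀ d ∈ D, d * x = x * d) ∧ a * x * a⁻¹ = x⁻¹ ∧
      ∀ e : ℕ, 0 < e → orderOf x ∣ 2 ^ (2 * e) - 1 → Nat.card A ^ 2 ≤ 2 ^ e * Nat.card D ^ 2 := by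
  classical
  let P : Subgroup G → Prop := fun D => D ≤ A ∧ A ⊓ centralizer (K : Set G) ≤ D ∧
    ∀ d ∈ D, d ∈ normalizer (K : Set G) → d ∈ centralizer (K : Set G)
  have hP0 : P (A ⊓ centralizer (K : Set G)) := ⟨inf_le_left, le_rfl, fun d hd _ => (mem_inf.1 hd).2⟩
  obtain ⟨D, hD⟩ : ∃ D, Maximal P D := (Set.toFinite {D | P D}).exists_maximal ⟨_, hP0⟩
  obtain ⟨hDA, hBD, hDN⟩ := hD.prop
  have ha0D : a0 ∉ D := fun h => ha0C (hDN a0 h ha0N)
  -- every element of `A` is a product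
  have hdec : ∀ a ∈ A, ∃ a1 ∈ A, a1 ∈ normalizer (K : Set G) ∧ ∃ d ∈ D, a1 * d = a := by
    intro a ha
    by_cases haD : a ∈ D
    · exact ⟨1, one_mem _, one_mem _, a, haD, one_mul a⟩
    have hs := hAs a ha
    have h1 : ¬ P (D ⊔ zpowers a) := fun h => haD (hD.le_of_ge h le_sup_left (mem_sup_right (mem_zpowers a)))
    have h3 : ∃ d ∈ D ⊔ zpowers a, d ∈ normalizer (K : Set G) ∧ d ∉ centralizer (K : Set G) := by
      by_contra hcon
      push Not at hcon
      exact h1 ⟨sup_le hDA (zpowers_le.2 ha), hBD.trans le_sup_left, hcon⟩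
    obtain ⟨g, hg, hgN, hgC⟩ := h3
    have hgA : g ∈ A := sup_le hDA (zpowers_le.2 ha) hg
    have hn : D ≤ normalizer ((zpowers a : Subgroup G) : Set G) := by
      intro d hd
      apply mem_normalizer_of_map
      apply le_antisymm
      · rintro _ ⟨y, ⟨k, rfl⟩, rfl⟩
        refine ⟨k, ?_⟩
        change a ^ k = d * a ^ k * d⁻¹
        have : Commute d (a ^ k) := (show Commute d a from hAc d (hDA hd) a ha).zpow_right k
        rw [this.eq]; group
      · rintro _ ⟨k, rfl⟩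
        refine ⟨a ^ k, ⟨k, rfl⟩, ?_⟩
        change d * a ^ k * d⁻¹ = a ^ k
        have : Commute d (a ^ k) := (show Commute d a from hAc d (hDA hd) a ha).zpow_right k
        rw [this.eq]; group
    have hg2 : g ∈ ((D ⊔ zpowers a : Subgroup G) : Set G) := hg
    rw [Subgroup.coe_mul_of_left_le_normalizer_right _ _ hn] at hg2
    obtain ⟨d, hd, _, ⟨k, rfl⟩, rfl⟩ := Set.mem_mul.1 hg2
    have hak : a ^ k = 1 ∨ a ^ k = a := by
      rcases Int.even_or_odd k with ⟨m, rfl⟩ | ⟨m, rfl⟩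
      · left
        rw [← two_mul, zpow_mul, zpow_two, hs, one_zpow]
      · right
        rw [zpow_add, zpow_mul, zpow_two, hs, one_zpow, one_mul, zpow_one]
    rcases hak with h | h
    · exfalso
      simp only [h, mul_one] at hgN hgC
      exact hgC (hDN d hd hgN)
    · simp only [h] at hgN hgC hgA
      refine ⟨d * a, hgA, hgN, d⁻¹, inv_mem hd, ?_⟩
      rw [hAc d (hDA hd) a ha]; group
  -- the quotient
  set π := QuotientGroup.mk' (zl G) with hπ
  set T := K.map π with hT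
  obtain ⟨eT⟩ := bar_equiv hK
  have hTs : IsSimpleGroup T := by
    haveI := hK.2.2
    exact MulEquiv.isSimpleGroup eT
  have hTc : ¬ IsMulCommutative T := by
    intro h
    apply simple_not_comm hK
    refine ⟨⟨fun a b => ?_⟩⟩
    have h1 := h.is_comm.comm (eT.symm a) (eT.symm b)
    rw [← map_mul, ← map_mul] at h1
    exact eT.symm.injective h1
  have hTT : IsSuzukiOrPSL2OddPowerThree T := TT_equiv eT (hc K hK.1 (center K) hK.2.2 (simple_not_comm hK))
  obtain ⟨Q, hQ⟩ := hA1 T hTs hTc hTT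
  have hS3' : ¬ Involves (Equiv.Perm (Fin 3)) (G ⧸ zl G) := fun h =>
    hS3 (H51.Involves.involves_of_hom π (QuotientGroup.mk'_surjective _) h)
  have hTcen : ∀ t : T, (∀ y : T, t * y = y * t) → t = 1 := by
    intro t ht
    have h1 : center T = ⊥ := by
      rcases (center T).normal_of_characteristic.eq_bot_or_eq_top with h | h
      · exact h
      · exfalso
        apply hTc
        refine ⟨⟨fun a b => ?_⟩⟩
        have : a ∈ center T := by rw [h]; trivial
        exact (mem_center_iff.1 this b).symm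
    have h3 : t ∈ center T := mem_center_iff.2 (fun y => (ht y).symm)
    rw [h1] at h3
    exact mem_bot.1 h3
  have hconjK : ∀ a : G, a ∈ normalizer (K : Set G) → ∀ y ∈ K, a * y * a⁻¹ ∈ K := fun a ha y hy =>
    (mem_normalizer_iff.1 ha y).1 hy
  have hNT : ∀ a : G, a ∈ normalizer (K : Set G) → π a ∈ normalizer (T : Set (G ⧸ zl G)) := by
    intro a ha
    rw [mem_normalizer_iff]
    intro x
    constructor
    · rintro ⟨y, hy, rfl⟩
      exact ⟨a * y * a⁻¹, hconjK a ha y hy, by rw [map_mul, map_mul, map_inv]⟩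
    · rintro ⟨y, hy, hyx⟩
      refine ⟨a⁻¹ * y * a⁻¹⁻¹, hconjK a⁻¹ (inv_mem ha) y hy, ?_⟩
      simp only [map_mul, map_inv]
      rw [hyx]; group
  have hinner : ∀ a ∈ A, a ∈ normalizer (K : Set G) → ∃ t : T, ∀ y : T, π a * y * (π a)⁻¹ = t * y * (t : G ⧸ zl G)⁻¹ := by
    intro a ha haN
    obtain ⟨t, ht, h⟩ := hA2 (G ⧸ zl G) hS3' T hTs hTc hTT (π a) (hNT a haN) (by rw [← map_mul, hAs a ha, map_one])
    exact ⟨⟨t, ht⟩, fun y => h y y.2⟩
  -- elements of A acting trivially on T centralise K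
  have hzlA : ∀ z ∈ zl G, ∀ a ∈ A, a * z = z * a := fun z hz a ha =>
    mem_centralizer_iff.1 (hO (zl_le h2 hz)) a ha
  have hzlsq : ∀ z ∈ zl G, z * z = 1 → z = 1 := fun z hz h => eq_one_of_sq (zl_le h2 hz) h
  have hzlK : ∀ z ∈ zl G, ∀ y ∈ K, z * y = y * z := fun z hz y hy =>
    (mem_centralizer_iff.1 (mem_inf.1 hz).2 y (le_layer hK hy)).symm
  have htriv : ∀ b ∈ A, (∀ y : T, π b * y * (π b)⁻¹ = y) → b ∈ centralizer (K : Set G) := by
    intro b hb h
    rw [mem_centralizer_iff]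
    intro k hk
    have h1 : π (k⁻¹ * (b * k * b⁻¹)) = 1 := by
      have h3 := h ⟨π k, ⟨k, hk, rfl⟩⟩
      change π b * π k * (π b)⁻¹ = π k at h3
      rw [map_mul, map_mul, map_mul, map_inv, map_inv, h3, inv_mul_cancel]
    have hz : k⁻¹ * (b * k * b⁻¹) ∈ zl G := (QuotientGroup.eq_one_iff _).1 h1
    set z := k⁻¹ * (b * k * b⁻¹) with hzdef
    have h3 : b * k * b⁻¹ = k * z := by rw [hzdef]; group
    have hbb := hAs b hb
    have hbz : b * z * b⁻¹ = z := by rw [hzlA z hz b hb]; group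
    have h4 : k = k * (z * z) := by
      calc k = (b * b) * k * (b * b)⁻¹ := by rw [hbb]; group
        _ = b * (b * k * b⁻¹) * b⁻¹ := by group
        _ = b * (k * z) * b⁻¹ := by rw [h3]
        _ = (b * k * b⁻¹) * (b * z * b⁻¹) := by group
        _ = k * (z * z) := by rw [h3, hbz, mul_assoc]
    have h5 : z = 1 := hzlsq z hz (by
      have := mul_left_cancel (a := k) (b := 1) (c := z * z) (by rw [mul_one]; exact h4)
      exact this.symm)
    rw [h5, mul_one] at h3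
    calc k * b = (b * k * b⁻¹) * b := by rw [h3]
      _ = b * k := by group
  -- the subgroup of T induced by A
  let E : Subgroup T :=
    { carrier := {t : T | ∃ a ∈ A, a ∈ normalizer (K : Set G) ∧ ∀ y : T, π a * y * (π a)⁻¹ = t * y * (t : G ⧸ zl G)⁻¹}
      mul_mem' := by
        rintro t s ⟨a, ha, haN, h⟩ ⟨b, hb, hbN, h'⟩
        refine ⟨a * b, mul_mem ha hb, mul_mem haN hbN, fun y => ?_⟩
        have h3 := h' y
        have h4 := h (s * y * s⁻¹)
        rw [map_mul]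
        calc π a * π b * y * (π a * π b)⁻¹ = π a * (π b * y * (π b)⁻¹) * (π a)⁻¹ := by group
          _ = π a * ((s * y * s⁻¹ : T) : G ⧸ zl G) * (π a)⁻¹ := by rw [h3]; rfl
          _ = _ := by
            rw [h4]
            push_cast
            group
      one_mem' := ⟨1, one_mem _, one_mem _, fun y => by simp⟩
      inv_mem' := by
        rintro t ⟨a, ha, haN, h⟩
        refine ⟨a⁻¹, inv_mem ha, inv_mem haN, fun y => ?_⟩
        have h3 := h (t⁻¹ * y * t)
        push_cast at h3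
        have h4 : (t : G ⧸ zl G) * ((t : G ⧸ zl G)⁻¹ * y * t) * (t : G ⧸ zl G)⁻¹ = y := by group
        rw [h4] at h3
        rw [map_inv]
        push_cast
        calc (π a)⁻¹ * y * (π a)⁻¹⁻¹ = (π a)⁻¹ * (π a * ((t : G ⧸ zl G)⁻¹ * y * t) * (π a)⁻¹) * (π a)⁻¹⁻¹ := by rw [h3]
          _ = _ := by group }
  have hE : ∀ t : T, t ∈ E ↔ ∃ a ∈ A, a ∈ normalizer (K : Set G) ∧
      ∀ y : T, π a * y * (π a)⁻¹ = t * y * (t : G ⧸ zl G)⁻¹ := fun t => Iff.rfl
  -- two elements inducing the same automorphism are equal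
  have huniq : ∀ t s : T, (∀ y : T, (t : G ⧸ zl G) * y * (t : G ⧸ zl G)⁻¹ = s * y * (s : G ⧸ zl G)⁻¹) → t = s := by
    intro t s h
    have h1 : s⁻¹ * t = 1 := by
      apply hTcen
      intro y
      apply Subtype.ext
      have h3 := h y
      push_cast
      calc (s : G ⧸ zl G)⁻¹ * t * y = (s : G ⧸ zl G)⁻¹ * (t * y * (t : G ⧸ zl G)⁻¹) * t := by group
        _ = (s : G ⧸ zl G)⁻¹ * (s * y * (s : G ⧸ zl G)⁻¹) * t := by rw [h3]
        _ = _ := by group
    exact (inv_mul_eq_one.1 h1).symm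
  have hEc : ∀ t ∈ E, ∀ s ∈ E, t * s = s * t := by
    rintro t ⟨a, ha, haN, h⟩ s ⟨b, hb, hbN, h'⟩
    apply huniq
    intro y
    have h3 := h' y
    have h4 := h (s * y * s⁻¹)
    have h5 := h y
    have h6 := h' (t * y * t⁻¹)
    push_cast at h4 h6 ⊢
    have e1 : (t * s : G ⧸ zl G) * y * (t * s : G ⧸ zl G)⁻¹ = π (a * b) * y * (π (a * b))⁻¹ := by
      rw [map_mul]
      calc (t * s : G ⧸ zl G) * y * (t * s : G ⧸ zl G)⁻¹ = t * (s * y * (s : G ⧸ zl G)⁻¹) * (t : G ⧸ zl G)⁻¹ := by group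
        _ = π a * (s * y * (s : G ⧸ zl G)⁻¹) * (π a)⁻¹ := h4.symm
        _ = π a * (π b * y * (π b)⁻¹) * (π a)⁻¹ := by rw [h3]
        _ = _ := by group
    have e2 : (s * t : G ⧸ zl G) * y * (s * t : G ⧸ zl G)⁻¹ = π (b * a) * y * (π (b * a))⁻¹ := by
      rw [map_mul]
      calc (s * t : G ⧸ zl G) * y * (s * t : G ⧸ zl G)⁻¹ = s * (t * y * (t : G ⧸ zl G)⁻¹) * (s : G ⧸ zl G)⁻¹ := by group
        _ = π b * (t * y * (t : G ⧸ zl G)⁻¹) * (π b)⁻¹ := h6.symm
        _ = π b * (π a * y * (π a)⁻¹) * (π b)⁻¹ := by rw [h5]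
        _ = _ := by group
    rw [e1, e2, hAc a ha b hb]
  have hEs : ∀ t ∈ E, t * t = 1 := by
    rintro t ⟨a, ha, haN, h⟩
    apply huniq
    intro y
    have h4 := h (t * y * t⁻¹)
    have h5 := h y
    push_cast at h4 ⊢
    calc (t * t : G ⧸ zl G) * y * (t * t : G ⧸ zl G)⁻¹ = t * (t * y * (t : G ⧸ zl G)⁻¹) * (t : G ⧸ zl G)⁻¹ := by group
      _ = π a * (t * y * (t : G ⧸ zl G)⁻¹) * (π a)⁻¹ := h4.symm
      _ = π a * (π a * y * (π a)⁻¹) * (π a)⁻¹ := by rw [h5]
      _ = π (a * a) * y * (π (a * a))⁻¹ := by rw [map_mul]; group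
      _ = _ := by rw [hAs a ha, map_one]
  have hEQ := hQ.el E hEc hEs
  -- |A| ≤ |E| |D|
  have hcard : Nat.card A ≤ Nat.card E * Nat.card D := by
    rw [← Nat.card_prod]
    choose s hsA hsN hs using fun t : E => (hE t.1).1 t.2
    refine Nat.card_le_card_of_surjective
      (fun p : E × D => (⟨s p.1 * p.2, mul_mem (hsA p.1) (hDA p.2.2)⟩ : A)) ?_
    rintro ⟨a, ha⟩
    obtain ⟨a1, ha1, ha1N, d, hd, hdec⟩ := hdec a ha
    obtain ⟨t, ht⟩ := hinner a1 ha1 ha1N
    let t' : E := ⟨t, (hE t).2 ⟨a1, ha1, ha1N, ht⟩⟩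
    have hb : (s t')⁻¹ * a1 ∈ A := mul_mem (inv_mem (hsA t')) ha1
    have hbC : (s t')⁻¹ * a1 ∈ centralizer (K : Set G) := by
      apply htriv _ hb
      intro y
      have h3 := hs t' y
      have h4 := ht y
      have h5 : (t' : T) = t := rfl
      rw [h5] at h3
      rw [map_mul, map_inv]
      calc (π (s t'))⁻¹ * π a1 * y * ((π (s t'))⁻¹ * π a1)⁻¹
          = (π (s t'))⁻¹ * (π a1 * y * (π a1)⁻¹) * π (s t') := by group
        _ = (π (s t'))⁻¹ * (π (s t') * y * (π (s t'))⁻¹) * π (s t') := by rw [h4, h3]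
        _ = y := by group
    refine ⟨(t', ⟨(s t')⁻¹ * a1 * d, mul_mem (hBD (mem_inf.2 ⟨hb, hbC⟩)) hd⟩), ?_⟩
    apply Subtype.ext
    change s t' * ((s t')⁻¹ * a1 * d) = a
    rw [← hdec]; group
  -- the inverted element
  obtain ⟨t0, ht0⟩ := hinner a0 ha0 ha0N
  have ht01 : t0 ≠ 1 := by
    intro h
    apply ha0C
    apply htriv a0 ha0
    intro y
    rw [ht0 y, h]; simp
  have ht0s : t0 * t0 = 1 := hEs t0 ((hE t0).2 ⟨a0, ha0, ha0N, ht0⟩)
  obtain ⟨x0, hxp, hx2, hx0, -, hxQ⟩ := hQ.inv t0 ht01 ht0s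
  obtain ⟨k, hk, hkx⟩ := x0.2
  have haa := hAs a0 ha0
  have hai : a0⁻¹ = a0 := inv_eq_of_mul_eq_one_left haa
  set k2 := k⁻¹ * (a0 * k * a0⁻¹) with hk2
  have hk2K : k2 ∈ K := mul_mem (inv_mem hk) (hconjK a0 ha0N k hk)
  have hπk2 : π k2 = ((x0 * x0)⁻¹ : T) := by
    have h3 := ht0 x0
    have h4 := congrArg Subtype.val hx0
    push_cast at h4
    rw [hk2, map_mul, map_mul, map_mul, map_inv, map_inv, hkx, h3, h4]
    push_cast
    group
  have hinv : a0 * k2 * a0⁻¹ = k2⁻¹ := by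
    rw [hk2, hai]
    calc a0 * (k⁻¹ * (a0 * k * a0)) * a0 = a0 * k⁻¹ * a0 * k * (a0 * a0) := by group
      _ = a0 * k⁻¹ * a0 * k := by rw [haa, mul_one]
      _ = (k⁻¹ * (a0 * k * a0))⁻¹ := by
        rw [mul_inv_rev, mul_inv_rev, mul_inv_rev, inv_inv, hai]
        group
  have hxodd : Odd (orderOf x0) := hxp.odd_of_ne_two hx2
  have hk21 : π k2 ≠ 1 := by
    rw [hπk2]
    intro h
    have h3 : (x0 * x0)⁻¹ = 1 := Subtype.ext h
    rw [inv_eq_one] at h3
    have h4 : orderOf x0 ∣ 2 := orderOf_dvd_of_pow_eq_one (by rw [pow_two]; exact h3)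
    rcases (Nat.dvd_prime Nat.prime_two).1 h4 with h5 | h5
    · rw [h5] at hxp; exact Nat.not_prime_one hxp
    · exact hx2 h5
  have hk2l : k2 ^ orderOf x0 = 1 := by
    have h3 : k2 ^ orderOf x0 ∈ zl G := by
      refine (QuotientGroup.eq_one_iff _).1 ?_
      change π (k2 ^ orderOf x0) = 1
      rw [map_pow, hπk2]
      have h4 : ((x0 * x0)⁻¹) ^ orderOf x0 = 1 := by
        rw [← pow_two, ← inv_pow, ← pow_mul, mul_comm, pow_mul, inv_pow, pow_orderOf_eq_one, inv_one, one_pow]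
      have h5 := congrArg Subtype.val h4
      push_cast at h5 ⊢
      exact h5
    apply hzlsq _ h3
    have h4 := conj_pow_inv hinv (orderOf x0)
    have h5 : a0 * k2 ^ orderOf x0 * a0⁻¹ = k2 ^ orderOf x0 := by rw [hzlA _ h3 a0 ha0]; group
    rw [h5] at h4
    nth_rw 1 [h4]
    exact inv_mul_cancel _
  obtain ⟨φ, h1, h2', h3, h4⟩ := diag (K := K) (D := D) (fun a ha b hb => hAc a (hDA ha) b (hDA hb))
    (fun a ha => hAs a (hDA ha))
    (fun d hd => by
      by_cases hdN : d ∈ normalizer (K : Set G)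
      · left
        intro y hy
        have h1 := mem_centralizer_iff.1 (hDN d hd hdN) y hy
        rw [← h1]; group
      · right
        exact comp_move hK hdN)
  let kk : K := ⟨k2, hk2K⟩
  have hx1 : φ kk ≠ 1 := by
    intro h
    apply hk21
    refine (QuotientGroup.eq_one_iff _).2 (mem_zl hK hk2K ?_)
    intro g hg
    have h5 := h2' kk g hg
    rw [h, one_mul, inv_one, mul_one] at h5
    change g = k2 * g * k2⁻¹ at h5
    rw [← mul_inv_eq_iff_eq_mul]
    exact h5.symm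
  have hxl : φ kk ^ orderOf x0 = 1 := by
    rw [← map_pow]
    have : kk ^ orderOf x0 = 1 := Subtype.ext hk2l
    rw [this, map_one]
  haveI : Fact (orderOf x0).Prime := ⟨hxp⟩
  have hord : orderOf (φ kk) = orderOf x0 := orderOf_eq_prime hxl hx1
  refine ⟨D, hDA, a0, ha0, ha0D, φ kk, by rw [hord]; exact hxp, by rw [hord]; exact hx2, ?_, ?_, ?_⟩
  · intro d hd
    rw [← mul_inv_eq_iff_eq_mul]; exact h1 kk d hd
  · have h5 := h4 a0 (fun d hd => hAc a0 ha0 d (hDA hd)) kk kk⁻¹ (by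
      change k2⁻¹ = a0 * k2 * a0⁻¹
      exact hinv.symm)
    rw [h5, map_inv]
  · intro e he hle
    rw [hord] at hle
    calc Nat.card A ^ 2 ≤ (Nat.card E * Nat.card D) ^ 2 := Nat.pow_le_pow_left hcard 2
      _ = Nat.card E ^ 2 * Nat.card D ^ 2 := by ring
      _ ≤ 2 ^ e * Nat.card D ^ 2 := Nat.mul_le_mul_right _ (hEQ.trans (hxQ e he hle))

/-- the existence theorem -/
theorem exist_of (hA1 : A1.{u}) (hA2 : A2.{u}) (h2 : pCore 2 G = ⊥) (hS3 : ¬ Involves (Equiv.Perm (Fin 3)) G)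
    (hc : IsCompositionKGroupWith IsSuzukiOrPSL2OddPowerThree G) : Exist G := by
  intro A hAc hAs hA
  by_cases hO : pPrimeCore 2 G ≤ centralizer (A : Set G)
  · obtain ⟨K, hK, hKA⟩ := comp_exists h2 hAs hA hO
    by_cases hN : ∀ a ∈ A, a ∈ normalizer (K : Set G) → a ∈ centralizer (K : Set G)
    · exact case_one hS3 hAc hAs hK hKA hN
    · push Not at hN
      obtain ⟨a0, ha0, ha0N, ha0C⟩ := hN
      exact case_two hA1 hA2 h2 hS3 hc hAc hAs hO hK ha0 ha0N ha0C
  · exact case_i hS3 hAc hAs hO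

end H12.GFB
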