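import Cfsg.Agent.Lib.H12.GFBD

/-!
# Offender bounds: the statement of S2752 (helper12)
-/

set_option autoImplicit false

universe u

namespace H12.GFB

open Subgroup Cfsg

theorem main (hA1 : A1.{u}) (hA2 : A2.{u}) {L : Type u} [Group L] [Finite L] (M G : Subgroup L)
    (hM : IsElementaryAbelian 2 M) (hGM : G ≤ normalizer (M : Set L))
    (hf : G ⊓ centralizer (M : Set L) = ⊥) (ha : pCore 2 ↥G = ⊥)
    (hb : ¬ Involves (Equiv.Perm (Fin 3)) ↥G) (hc : IsCompositionKGroupWith IsSuzukiOrPSL2OddPowerThree ↥G)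
    (A : Subgroup L) (hA : A ≤ G) (hAe : IsElementaryAbelian 2 A) :
    Nat.card A ^ 2 * Nat.card ↥(M ⊓ centralizer (A : Set L)) ≤ Nat.card M ∧ Nat.card A ^ 2 ≤ Nat.card ↥⁅M, A⁆ := by
  classical
  letI : CommGroup ↥M := { (inferInstance : Group ↥M) with mul_comm := hM.1.is_comm.comm }
  have hst : ∀ g ∈ G, ∀ m ∈ M, g * m * g⁻¹ ∈ M := fun g hg m hm => (mem_normalizer_iff.1 (hGM hg) m).1 hm
  letI act : DistribMulAction ↥G (Additive ↥M) :=
    { smul := fun g v => Additive.ofMul ⟨(g : L) * (v.toMul : L) * (g : L)⁻¹, hst g g.2 _ v.toMul.2⟩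
      one_smul := by
        intro v
        apply Additive.toMul.injective
        apply Subtype.ext
        change ((1 : G) : L) * (v.toMul : L) * ((1 : G) : L)⁻¹ = (v.toMul : L)
        simp
      mul_smul := by
        intro g h v
        apply Additive.toMul.injective
        apply Subtype.ext
        change ((g * h : G) : L) * (v.toMul : L) * ((g * h : G) : L)⁻¹ = (g : L) * ((h : L) * (v.toMul : L) * (h : L)⁻¹) * (g : L)⁻¹
        push_cast
        group
      smul_zero := by
        intro g
        apply Additive.toMul.injective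
        apply Subtype.ext
        change (g : L) * (1 : L) * (g : L)⁻¹ = 1
        group
      smul_add := by
        intro g v w
        apply Additive.toMul.injective
        apply Subtype.ext
        change (g : L) * ((v.toMul : L) * (w.toMul : L)) * (g : L)⁻¹ =
          ((g : L) * (v.toMul : L) * (g : L)⁻¹) * ((g : L) * (w.toMul : L) * (g : L)⁻¹)
        group }
  have hsm : ∀ (g : G) (v : Additive ↥M), ((g • v).toMul : L) = (g : L) * (v.toMul : L) * (g : L)⁻¹ := fun g v => rfl
  have h2 : ∀ v : Additive ↥M, v + v = 0 := by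
    intro v
    apply Additive.toMul.injective
    apply Subtype.ext
    change (v.toMul : L) * (v.toMul : L) = 1
    rw [← pow_two]; exact hM.2 _ v.toMul.2
  have hfaith : ∀ g : G, (∀ v : Additive ↥M, g • v = v) → g = 1 := by
    intro g hg
    have h1 : (g : L) ∈ G ⊓ centralizer (M : Set L) := by
      refine mem_inf.2 ⟨g.2, mem_centralizer_iff.2 ?_⟩
      intro m hm
      have h3 := congrArg (fun v : Additive ↥M => (v.toMul : L)) (hg (Additive.ofMul ⟨m, hm⟩))
      change (g : L) * m * (g : L)⁻¹ = m at h3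
      calc m * g = ((g : L) * m * (g : L)⁻¹) * g := by rw [h3]
        _ = g * m := by group
    rw [hf] at h1
    exact Subtype.ext (mem_bot.1 h1)
  have hE : Exist ↥G := exist_of hA1 hA2 ha hb hc
  have hAc : ∀ a ∈ A.subgroupOf G, ∀ b ∈ A.subgroupOf G, a * b = b * a := by
    intro a ha' b hb'
    have := hAe.1.is_comm.comm ⟨(a : L), mem_subgroupOf.1 ha'⟩ ⟨(b : L), mem_subgroupOf.1 hb'⟩
    exact Subtype.ext (congrArg (fun z : A => (z : L)) this)
  have hAs : ∀ a ∈ A.subgroupOf G, a * a = 1 := by
    intro a ha'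
    apply Subtype.ext
    have := hAe.2 (a : L) (mem_subgroupOf.1 ha')
    rw [pow_two] at this
    exact this
  have hcA : Nat.card (A.subgroupOf G) = Nat.card A := Nat.card_congr (subgroupOfEquivOfLe hA).toEquiv
  have hV : Finite (Additive ↥M) := inferInstanceAs (Finite ↥M)
  constructor
  · have h1 := bound1 (V := Additive ↥M) hE h2 hfaith (A.subgroupOf G) hAc hAs
    rw [hcA] at h1
    have h3 : Nat.card (fixA (Additive ↥M) (A.subgroupOf G)) = Nat.card ↥(M ⊓ centralizer (A : Set L)) := by
      refine Nat.card_congr ⟨fun v => ⟨(v.1.toMul : L), mem_inf.2 ⟨v.1.toMul.2, ?_⟩⟩,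
        fun m => ⟨Additive.ofMul ⟨m.1, (mem_inf.1 m.2).1⟩, ?_⟩, fun v => rfl, fun m => rfl⟩
      · rw [mem_centralizer_iff]
        intro a ha'
        have h5 := v.2 ⟨a, hA ha'⟩ (mem_subgroupOf.2 ha')
        have h6 := congrArg (fun v : Additive ↥M => (v.toMul : L)) h5
        change a * (v.1.toMul : L) * a⁻¹ = (v.1.toMul : L) at h6
        calc a * (v.1.toMul : L) = (a * (v.1.toMul : L) * a⁻¹) * a := by group
          _ = _ := by rw [h6]
      · intro a ha'
        apply Additive.toMul.injective
        apply Subtype.ext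
        change (a : L) * (m : L) * (a : L)⁻¹ = m
        rw [mem_centralizer_iff.1 (mem_inf.1 m.2).2 a (mem_subgroupOf.1 ha')]
        group
    rw [h3] at h1
    exact h1
  · have h1 := bound2 (V := Additive ↥M) hE h2 hfaith (A.subgroupOf G) hAc hAs
    rw [hcA] at h1
    refine h1.trans ?_
    have hmem : ∀ v ∈ comA (Additive ↥M) (A.subgroupOf G), (v.toMul : L) ∈ ⁅M, A⁆ := by
      intro v hv
      induction hv using AddSubgroup.closure_induction with
      | mem w hw =>
        obtain ⟨a, ha', v, rfl⟩ := hw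
        have h5 : (((a • v - v : Additive ↥M)).toMul : L) = (a : L) * (v.toMul : L) * (a : L)⁻¹ * (v.toMul : L)⁻¹ := by
          rw [sub_eq_add_neg]; rfl
        rw [h5, commutator_comm]
        exact commutator_mem_commutator (mem_subgroupOf.1 ha') v.toMul.2
      | zero => exact one_mem _
      | add x y _ _ hx hy => exact mul_mem hx hy
      | neg x _ hx => exact inv_mem hx
    refine Nat.card_le_card_of_injective (fun v => (⟨(v.1.toMul : L), hmem v.1 v.2⟩ : ↥⁅M, A⁆)) ?_
    intro v w h
    apply Subtype.ext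
    apply Additive.toMul.injective
    apply Subtype.ext
    exact congrArg (fun z : ↥⁅M, A⁆ => (z : L)) h

end H12.GFB
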