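import Mathlib
import Cfsg.Agent.Lib.H3.Extraspecial
import Cfsg.Agent.Lib.H56.Heis

/-! The Heisenberg group over `ZMod p` and its embedding into `GL (n + 2)`. -/

set_option autoImplicit false

open Subgroup Matrix
open scoped commutatorElement

namespace H12.Heis

/-- The Heisenberg group. -/
@[ext] structure Heis (n p : ℕ) where
  a : Fin n → ZMod p
  b : Fin n → ZMod p
  c : ZMod p

variable {n p : ℕ}

instance : Mul (Heis n p) := ⟨fun x y => ⟨x.a + y.a, x.b + y.b, x.c + y.c + x.a ⬝ᵥ y.b⟩⟩
instance : One (Heis n p) := ⟨⟨0, 0, 0⟩⟩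
instance : Inv (Heis n p) := ⟨fun x => ⟨-x.a, -x.b, -x.c + x.a ⬝ᵥ x.b⟩⟩

@[simp] theorem mul_a (x y : Heis n p) : (x * y).a = x.a + y.a := rfl
@[simp] theorem mul_b (x y : Heis n p) : (x * y).b = x.b + y.b := rfl
@[simp] theorem mul_c (x y : Heis n p) : (x * y).c = x.c + y.c + x.a ⬝ᵥ y.b := rfl
@[simp] theorem one_a : (1 : Heis n p).a = 0 := rfl
@[simp] theorem one_b : (1 : Heis n p).b = 0 := rfl
@[simp] theorem one_c : (1 : Heis n p).c = 0 := rfl
@[simp] theorem inv_a (x : Heis n p) : (x⁻¹).a = -x.a := rfl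
@[simp] theorem inv_b (x : Heis n p) : (x⁻¹).b = -x.b := rfl
@[simp] theorem inv_c (x : Heis n p) : (x⁻¹).c = -x.c + x.a ⬝ᵥ x.b := rfl

instance : Group (Heis n p) :=
  Group.ofLeftAxioms
    (by
      intro x y z
      ext1
      · simp [add_assoc]
      · simp [add_assoc]
      · simp only [mul_a, mul_b, mul_c, add_dotProduct, dotProduct_add]; ring)
    (by intro x; ext1 <;> simp)
    (by
      intro x
      ext1
      · simp
      · simp
      · simp only [mul_c, inv_c, inv_a, neg_dotProduct, one_c]; ring)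

/-- as a product type. -/
def equivProd : Heis n p ≃ (Fin n → ZMod p) × (Fin n → ZMod p) × ZMod p where
  toFun x := (x.a, x.b, x.c)
  invFun x := ⟨x.1, x.2.1, x.2.2⟩
  left_inv _ := rfl
  right_inv _ := rfl

instance [NeZero p] : Finite (Heis n p) := Finite.of_equiv _ equivProd.symm

theorem card_eq [NeZero p] : Nat.card (Heis n p) = p ^ (1 + 2 * n) := by
  rw [Nat.card_congr equivProd, Nat.card_prod, Nat.card_prod, Nat.card_fun, Nat.card_zmod,
    Nat.card_fin]
  ring

theorem pow_a (x : Heis n p) (k : ℕ) : (x ^ k).a = k • x.a := by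
  induction k with
  | zero => simp
  | succ k ih => rw [pow_succ, mul_a, ih, succ_nsmul]

theorem pow_b (x : Heis n p) (k : ℕ) : (x ^ k).b = k • x.b := by
  induction k with
  | zero => simp
  | succ k ih => rw [pow_succ, mul_b, ih, succ_nsmul]

theorem pow_c (x : Heis n p) (k : ℕ) : (x ^ k).c = k * x.c + (k.choose 2 : ℕ) * (x.a ⬝ᵥ x.b) := by
  induction k with
  | zero => simp
  | succ k ih =>
    rw [pow_succ, mul_c, ih, pow_a, smul_dotProduct, Nat.choose_succ_succ' k 1, Nat.choose_one_right]
    push_cast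
    rw [nsmul_eq_mul]
    ring

theorem pow_eq_one [hp : Fact p.Prime] (hp2 : p ≠ 2) (x : Heis n p) : x ^ p = 1 := by
  have h2 : ((p.choose 2 : ℕ) : ZMod p) = 0 := by
    rw [ZMod.natCast_eq_zero_iff]
    exact hp.out.dvd_choose_self (by norm_num) (lt_of_le_of_ne hp.out.two_le (Ne.symm hp2))
  ext1
  · rw [pow_a]; funext i; simp
  · rw [pow_b]; funext i; simp
  · rw [pow_c, h2]; simp

theorem mem_center_iff (x : Heis n p) : x ∈ center (Heis n p) ↔ x.a = 0 ∧ x.b = 0 := by
  constructor
  · intro h
    rw [Subgroup.mem_center_iff] at h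
    constructor
    · funext i
      have h1 := congrArg Heis.c (h ⟨0, Pi.single i 1, 0⟩)
      simp only [mul_c, zero_dotProduct, dotProduct_single] at h1
      simp at h1
      exact h1
    · funext i
      have h1 := congrArg Heis.c (h ⟨Pi.single i 1, 0, 0⟩)
      simp only [mul_c, dotProduct_zero, single_dotProduct] at h1
      simp at h1
      exact h1
  · rintro ⟨h1, h2⟩
    rw [Subgroup.mem_center_iff]
    intro g
    ext1
    · simp [h1]
    · simp [h2]
    · simp [h1, h2, add_comm]

theorem card_center [NeZero p] : Nat.card (center (Heis n p)) = p := by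
  have e : center (Heis n p) ≃ ZMod p :=
    { toFun := fun x => x.1.c
      invFun := fun c => ⟨⟨0, 0, c⟩, (mem_center_iff _).2 ⟨rfl, rfl⟩⟩
      left_inv := by
        rintro ⟨x, hx⟩
        obtain ⟨h1, h2⟩ := (mem_center_iff x).1 hx
        apply Subtype.ext
        ext1
        · exact h1.symm
        · exact h2.symm
        · rfl
      right_inv := fun c => rfl }
  rw [Nat.card_congr e, Nat.card_zmod]

theorem isExtraspecial [hp : Fact p.Prime] (hn : 1 ≤ n) : Cfsg.IsExtraspecial p (Heis n p) := by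
  apply H3.Extraspecial.isExtraspecial_of
  · rw [commutator_def, Subgroup.commutator_le]
    intro x _ y _
    rw [mem_center_iff, commutatorElement_def]
    constructor
    · simp
    · simp
  · exact card_center
  · refine ⟨⟨Pi.single ⟨0, by omega⟩ 1, 0, 0⟩, ⟨0, Pi.single ⟨0, by omega⟩ 1, 0⟩, ?_⟩
    intro h
    rw [commutatorElement_eq_one_iff_mul_comm] at h
    have h1 := congrArg Heis.c h
    simp at h1

/-- the row vector -/
def rowv (x : Heis n p) : Fin (n + 2) → ZMod p := Fin.cons 0 (Fin.snoc x.a x.c : Fin (n + 1) → ZMod p)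

/-- the column vector -/
def colv (x : Heis n p) : Fin (n + 2) → ZMod p := Fin.cons 0 (Fin.snoc x.b 0 : Fin (n + 1) → ZMod p)

theorem rowv_dot_colv (x y : Heis n p) : rowv x ⬝ᵥ colv y = x.a ⬝ᵥ y.b := by
  rw [dotProduct, Fin.sum_univ_succ, Fin.sum_univ_castSucc]
  simp [rowv, colv, dotProduct]

/-- the first basis vector -/
abbrev e0 : Fin (n + 2) → ZMod p := Pi.single 0 1
/-- the last basis vector -/
abbrev eL : Fin (n + 2) → ZMod p := Pi.single (Fin.last (n + 1)) 1

/-- the matrix of `x`. -/
def mat (x : Heis n p) : Matrix (Fin (n + 2)) (Fin (n + 2)) (ZMod p) :=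
  1 + vecMulVec e0 (rowv x) + vecMulVec (colv x) eL

theorem mat_mul (x y : Heis n p) : mat (x * y) = mat x * mat y := by
  have h1 : rowv x ⬝ᵥ (e0 : Fin (n + 2) → ZMod p) = 0 := by simp [rowv]
  have h2 : (eL : Fin (n + 2) → ZMod p) ⬝ᵥ (e0 : Fin (n + 2) → ZMod p) = 0 := by
    simp [Fin.last, Fin.ext_iff]
  have h3 : (eL : Fin (n + 2) → ZMod p) ⬝ᵥ colv y = 0 := by
    simp [colv, ← Fin.succ_last]
  have h4 := rowv_dot_colv x y
  have h5 : rowv (x * y) = rowv x + rowv y + (x.a ⬝ᵥ y.b) • eL := by
    funext i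
    refine Fin.cases ?_ (fun j => ?_) i
    · simp [rowv]
    · refine Fin.lastCases ?_ (fun j => ?_) j
      · have e1 : (eL : Fin (n + 2) → ZMod p) (Fin.last n).succ = 1 := by
          simp [Fin.succ_last]
        simp only [rowv, Pi.add_apply, Pi.smul_apply, e1, Fin.cons_succ, Fin.snoc_last, mul_c,
          smul_eq_mul, mul_one]
      · have e1 : (eL : Fin (n + 2) → ZMod p) (Fin.castSucc j).succ = 0 := by
          rw [eL, Pi.single_apply, if_neg]
          intro h
          have := congrArg Fin.val h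
          simp at this
          omega
        simp only [rowv, Pi.add_apply, Pi.smul_apply, e1, Fin.cons_succ, Fin.snoc_castSucc, mul_a,
          smul_eq_mul, mul_zero, add_zero]
  have h6 : colv (x * y) = colv x + colv y := by
    funext i
    refine Fin.cases ?_ (fun j => ?_) i
    · simp [colv]
    · refine Fin.lastCases ?_ (fun j => ?_) j
      · simp [colv]
      · simp [colv]
  unfold mat
  rw [h5, h6]
  simp only [mul_add, add_mul, one_mul, mul_one, vecMulVec_mul_vecMulVec, h1, h2, h3, h4]
  simp only [zero_smul, vecMulVec_zero, vecMulVec_add, add_vecMulVec, add_zero]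
  abel

theorem mat_one : mat (1 : Heis n p) = 1 := by
  have h1 : rowv (1 : Heis n p) = 0 := by
    funext i
    refine Fin.cases ?_ (fun j => ?_) i
    · simp [rowv]
    · refine Fin.lastCases ?_ (fun j => ?_) j <;> simp [rowv]
  have h2 : colv (1 : Heis n p) = 0 := by
    funext i
    refine Fin.cases ?_ (fun j => ?_) i
    · simp [colv]
    · refine Fin.lastCases ?_ (fun j => ?_) j <;> simp [colv]
  simp [mat, h1, h2]

theorem mat_injective : Function.Injective (mat : Heis n p → _) := by
  intro x y h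
  have hrow : ∀ (x : Heis n p) (j : Fin (n + 1)), mat x 0 j.succ = rowv x j.succ := by
    intro x j
    have h1 : (0 : Fin (n + 2)) ≠ j.succ := (Fin.succ_ne_zero j).symm
    simp [mat, vecMulVec_apply, colv, Matrix.one_apply, h1]
  have hcol : ∀ (x : Heis n p) (j : Fin n), mat x (Fin.castSucc j).succ (Fin.last (n + 1)) = colv x (Fin.castSucc j).succ := by
    intro x j
    have h1 : (Fin.castSucc j).succ ≠ Fin.last (n + 1) := by
      intro h
      have := congrArg Fin.val h
      simp at this
      omega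
    simp [mat, vecMulVec_apply, Matrix.one_apply, h1]
  ext1
  · funext i
    have h1 := hrow x (Fin.castSucc i)
    rw [h, hrow y (Fin.castSucc i)] at h1
    simpa [rowv] using h1.symm
  · funext i
    have h1 := hcol x i
    rw [h, hcol y i] at h1
    simpa [colv] using h1.symm
  · have h1 := hrow x (Fin.last n)
    rw [h, hrow y (Fin.last n)] at h1
    simpa [rowv] using h1.symm

/-- the matrix embedding. -/
def hom : Heis n p →* Matrix.GeneralLinearGroup (Fin (n + 2)) (ZMod p) :=
  MonoidHom.toHomUnits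
    { toFun := mat
      map_one' := mat_one
      map_mul' := mat_mul }

theorem hom_injective : Function.Injective (hom : Heis n p →* _) := by
  intro x y h
  exact mat_injective (congrArg Units.val h)

theorem exists_extraspecial (p : ℕ) [Fact p.Prime] (hp : p ≠ 2) (n : ℕ) (hn : 1 ≤ n) :
    ∃ E : Subgroup (Matrix.GeneralLinearGroup (Fin (n + 2)) (ZMod p)),
      Cfsg.IsExtraspecial p ↥E ∧ Nat.card E = p ^ (1 + 2 * n) ∧ ∀ x ∈ E, x ^ p = 1 := by
  have e := MonoidHom.ofInjective (hom_injective (n := n) (p := p))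
  refine ⟨(hom : Heis n p →* _).range, H56.Heis.isExtraspecial_congr e (isExtraspecial hn), ?_, ?_⟩
  · rw [← Nat.card_congr e.toEquiv, card_eq]
  · rintro _ ⟨x, rfl⟩
    rw [← map_pow, pow_eq_one hp, map_one]

end H12.Heis
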