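import Cfsg.Agent.Lib.H12.SplitAb
import Cfsg.Agent.Lib.H12.Basic
import Cfsg.Agent.Lib.H76.Maschke

/-! Indecomposable abelian `p`-groups with a `p'`-group of operators. -/

set_option autoImplicit false

open Subgroup

namespace H12.IndAb

universe u

variable {G : Type u} [Group G]

/-- Maschke: `V` abelian normal, `W ≤ V` normal and complemented in `V`. -/
theorem maschke [Finite G] (V W A : Subgroup G) [V.Normal] [W.Normal]
    (hWV : W ≤ V) (hc : ∀ a ∈ V, ∀ b ∈ V, a * b = b * a) (hAV : A ≤ V) (hAW : A ⊓ W = ⊥)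
    (hWA : W ⊔ A = V) (hcop : (Nat.card W).Coprime V.index) :
    ∃ U : Subgroup G, U.Normal ∧ U ≤ V ∧ U ⊓ W = ⊥ ∧ W ⊔ U = V := by
  have : IsMulCommutative W := ⟨⟨fun a b => Subtype.ext (hc a (hWV a.2) b (hWV b.2))⟩⟩
  obtain ⟨H, hH⟩ := H2.Gaschutz.exists_complement W V hcop A hAV hAW hWA
  have htop : W ⊔ H = ⊤ := hH.sup_eq_top
  refine ⟨H ⊓ V, ?_, inf_le_right, ?_, ?_⟩
  · rw [← normalizer_eq_top_iff, eq_top_iff, ← htop, sup_le_iff]
    constructor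
    · intro w hw
      apply Basic.mem_normalizer_of_conj
      intro x hx
      rw [hc w (hWV hw) x hx.2, mul_inv_cancel_right]; exact hx
    · intro h hh
      apply Basic.mem_normalizer_of_conj
      intro x hx
      exact ⟨H.mul_mem (H.mul_mem hh hx.1) (H.inv_mem hh), (inferInstance : V.Normal).conj_mem _ hx.2 h⟩
  · rw [eq_bot_iff, ← hH.disjoint.eq_bot]
    intro x hx
    exact ⟨hx.2, hx.1.1⟩
  · apply le_antisymm (sup_le hWV inf_le_right)
    intro v hv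
    have : v ∈ W ⊔ H := by rw [htop]; exact mem_top _
    obtain ⟨w, hw, h, hh, rfl⟩ := mem_sup_of_normal_left.mp this
    refine mul_mem (mem_sup_left hw) (mem_sup_right ⟨hh, ?_⟩)
    have h3 : h = w⁻¹ * (w * h) := by group
    rw [h3]
    exact V.mul_mem (V.inv_mem (hWV hw)) hv

/-- Maschke, relative version -/
theorem maschke2 [Finite G] (V X T W A : Subgroup G) [V.Normal] [T.Normal] [W.Normal]
    (hc : ∀ a ∈ V, ∀ b ∈ V, a * b = b * a) (hVX : V ⊔ X = ⊤) (hTV : T ≤ V) (hWT : W ≤ T)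
    (hAT : A ≤ T) (hAW : A ⊓ W = ⊥)
    (hWA : W ⊔ A = T) (hcop : (Nat.card W).Coprime (Nat.card X)) :
    ∃ U : Subgroup G, U.Normal ∧ U ≤ T ∧ U ⊓ W = ⊥ ∧ W ⊔ U = T := by
  obtain ⟨H, hH⟩ : ∃ H, H = T ⊔ X := ⟨_, rfl⟩
  have hTH : T ≤ H := by rw [hH]; exact le_sup_left
  have hXH : X ≤ H := by rw [hH]; exact le_sup_right
  have hWH := hWT.trans hTH
  have hidx : (T.subgroupOf H).index = T.relIndex X := by
    change T.relIndex H = _
    rw [hH, sup_comm, Subgroup.relIndex_sup_right]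
  obtain ⟨U, hUn, hUT, hUW, hWU⟩ := maschke (T.subgroupOf H) (W.subgroupOf H) (A.subgroupOf H)
    (Subgroup.comap_mono hWT)
    (fun a ha b hb => Subtype.ext (hc a (hTV ha) b (hTV hb)))
    (Subgroup.comap_mono hAT)
    (by
      rw [eq_bot_iff]
      intro x hx
      obtain ⟨h1, h2⟩ := mem_inf.1 hx
      have h3 : (x : G) ∈ A ⊓ W := mem_inf.2 ⟨mem_subgroupOf.1 h1, mem_subgroupOf.1 h2⟩
      rw [hAW, mem_bot] at h3
      exact mem_bot.2 (Subtype.ext h3))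
    (by rw [← Subgroup.subgroupOf_sup hWH (hAT.trans hTH), hWA])
    (by
      rw [hidx, Basic.card_subgroupOf hWH]
      exact Nat.Coprime.coprime_dvd_right (Subgroup.relIndex_dvd_card _ _) hcop)
  have hUV : U.map H.subtype ≤ T := by
    rintro _ ⟨x, hx, rfl⟩
    exact mem_subgroupOf.1 (hUT hx)
  refine ⟨U.map H.subtype, ?_, hUV, ?_, ?_⟩
  · rw [← normalizer_eq_top_iff, eq_top_iff, ← hVX, sup_le_iff]
    constructor
    · intro w hw
      apply Basic.mem_normalizer_of_conj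
      intro x hx
      rw [hc w hw x (hTV (hUV hx)), mul_inv_cancel_right]; exact hx
    · intro h hh
      apply Basic.mem_normalizer_of_conj
      rintro _ ⟨x, hx, rfl⟩
      exact ⟨⟨h, hXH hh⟩ * x * ⟨h, hXH hh⟩⁻¹, hUn.conj_mem x hx _, rfl⟩
  · rw [eq_bot_iff]
    rintro _ ⟨⟨x, hx, rfl⟩, hxW⟩
    have h1 : x ∈ U ⊓ W.subgroupOf H := mem_inf.2 ⟨hx, mem_subgroupOf.2 hxW⟩
    rw [hUW, mem_bot] at h1
    rw [h1]; exact one_mem _
  · have h1 := congrArg (Subgroup.map H.subtype) hWU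
    rwa [Subgroup.map_sup, subgroupOf_map_subtype, subgroupOf_map_subtype, inf_eq_left.2 hWH,
      inf_eq_left.2 hTH] at h1

/-- the subgroup of powers -/
def pw (B : Subgroup G) (hc : ∀ a ∈ B, ∀ b ∈ B, a * b = b * a) (m : ℕ) : Subgroup G where
  carrier := {x | ∃ b ∈ B, b ^ m = x}
  mul_mem' := by
    rintro _ _ ⟨a, ha, rfl⟩ ⟨b, hb, rfl⟩
    exact ⟨a * b, mul_mem ha hb, Commute.mul_pow (hc a ha b hb) m⟩
  one_mem' := ⟨1, one_mem _, one_pow _⟩
  inv_mem' := by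
    rintro _ ⟨a, ha, rfl⟩
    exact ⟨a⁻¹, inv_mem ha, inv_pow a m⟩

theorem mem_pw {B : Subgroup G} {hc : ∀ a ∈ B, ∀ b ∈ B, a * b = b * a} {m : ℕ} {x : G} :
    x ∈ pw B hc m ↔ ∃ b ∈ B, b ^ m = x := Iff.rfl

theorem pw_normal {B : Subgroup G} [hB : B.Normal] (hc : ∀ a ∈ B, ∀ b ∈ B, a * b = b * a) (m : ℕ) :
    (pw B hc m).Normal := by
  constructor
  rintro _ ⟨b, hb, rfl⟩ g
  exact ⟨g * b * g⁻¹, hB.conj_mem b hb g, conj_pow⟩

/-- the subgroup of elements with trivial `m`th power -/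
def om (B : Subgroup G) (hc : ∀ a ∈ B, ∀ b ∈ B, a * b = b * a) (m : ℕ) : Subgroup G where
  carrier := {x | x ∈ B ∧ x ^ m = 1}
  mul_mem' := by
    rintro a b ⟨ha, ha'⟩ ⟨hb, hb'⟩
    exact ⟨mul_mem ha hb, by rw [Commute.mul_pow (hc a ha b hb) m, ha', hb', mul_one]⟩
  one_mem' := ⟨one_mem _, one_pow _⟩
  inv_mem' := by
    rintro a ⟨ha, ha'⟩
    exact ⟨inv_mem ha, by rw [inv_pow, ha', inv_one]⟩

theorem mem_om {B : Subgroup G} {hc : ∀ a ∈ B, ∀ b ∈ B, a * b = b * a} {m : ℕ} {x : G} :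
    x ∈ om B hc m ↔ x ∈ B ∧ x ^ m = 1 := Iff.rfl

theorem om_normal {B : Subgroup G} [hB : B.Normal] (hc : ∀ a ∈ B, ∀ b ∈ B, a * b = b * a) (m : ℕ) :
    (om B hc m).Normal := by
  constructor
  rintro b ⟨hb, hb'⟩ g
  exact ⟨hB.conj_mem b hb g, by rw [conj_pow, hb', mul_one, mul_inv_cancel]⟩

theorem exists_exp {p : ℕ} [hp : Fact p.Prime] [Finite G] {B : Subgroup G} (hB : IsPGroup p B) :
    ∃ i, (∀ b ∈ B, b ^ p ^ i = 1) ∧ ∀ j, (∀ b ∈ B, b ^ p ^ j = 1) → i ≤ j := by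
  classical
  have h1 : ∃ i, ∀ b ∈ B, b ^ p ^ i = 1 := by
    obtain ⟨m, hm⟩ := IsPGroup.iff_card.1 hB
    refine ⟨m, fun b hb => ?_⟩
    rw [← hm]
    exact congrArg Subtype.val (pow_card_eq_one' (x := (⟨b, hb⟩ : B)))
  exact ⟨Nat.find h1, Nat.find_spec h1, fun j hj => Nat.find_min' h1 hj⟩

theorem omega {p : ℕ} [hp : Fact p.Prime] [Finite G] {V : Subgroup G}
    (hc : ∀ a ∈ V, ∀ b ∈ V, a * b = b * a) (hV : IsPGroup p V)
    (h : ∀ B : Subgroup G, B.Normal → B ≤ V → (∀ b ∈ B, b ^ p = 1) →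
      B = ⊥ ∨ ∀ v ∈ V, v ^ p = 1 → v ∈ B) (B : Subgroup G) (hB : B.Normal) (hBV : B ≤ V) :
    ∃ i, ∀ v ∈ V, v ∈ B ↔ v ^ p ^ i = 1 := by
  obtain ⟨i, hi, hmin⟩ := exists_exp (hV.to_le hBV)
  refine ⟨i, fun v hv => ⟨hi v, ?_⟩⟩
  rcases Nat.eq_zero_or_pos i with h0 | h0
  · intro h1
    rw [h0, pow_zero, pow_one] at h1
    rw [h1]; exact one_mem _
  obtain ⟨k, rfl⟩ : ∃ k, i = k + 1 := ⟨i - 1, by omega⟩
  have hcB : ∀ a ∈ B, ∀ b ∈ B, a * b = b * a := fun a ha b hb => hc a (hBV ha) b (hBV hb)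
  have h2 : ∀ v ∈ V, v ^ p = 1 → v ∈ pw B hcB (p ^ k) := by
    have ha1 : pw B hcB (p ^ k) ≤ V := by
      rintro _ ⟨b, hb, rfl⟩
      exact pow_mem (hBV hb) _
    have ha2 : ∀ b ∈ pw B hcB (p ^ k), b ^ p = 1 := by
      rintro _ ⟨b, hb, rfl⟩
      rw [← pow_mul, ← pow_succ]
      exact hi b hb
    rcases h (pw B hcB (p ^ k)) (pw_normal hcB _) ha1 ha2 with h1 | h1
    · exfalso
      have h3 : k + 1 ≤ k := hmin k (fun b hb => by
        have h4 : b ^ p ^ k ∈ pw B hcB (p ^ k) := ⟨b, hb, rfl⟩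
        rw [h1] at h4
        exact h4)
      omega
    · exact h1
  have h3 : ∀ j ≤ k + 1, ∀ v ∈ V, v ^ p ^ j = 1 → v ∈ B := by
    intro j
    induction j with
    | zero =>
      intro _ v _ h1
      rw [pow_zero, pow_one] at h1
      rw [h1]; exact one_mem _
    | succ j ih =>
      intro hj v hv h1
      obtain ⟨b, hb, hbv⟩ := h2 (v ^ p ^ j) (pow_mem hv _) (by rw [← pow_mul, ← pow_succ]; exact h1)
      have e : (b ^ p ^ (k - j)) ^ p ^ j = b ^ p ^ k := by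
        rw [← pow_mul, ← pow_add]; congr 2; omega
      have hb' : b ^ p ^ (k - j) ∈ B := pow_mem hb _
      have h4 : v * (b ^ p ^ (k - j))⁻¹ ∈ B := by
        apply ih (by omega) _ (mul_mem hv (inv_mem (hBV hb')))
        rw [Commute.mul_pow (hc _ hv _ (inv_mem (hBV hb'))), inv_pow, e, hbv, mul_inv_cancel]
      have h5 := mul_mem h4 hb'
      rwa [inv_mul_cancel_right] at h5
  exact h3 (k + 1) le_rfl v hv

theorem split_sub {A M : Type*} [Group A] [Group M] [Finite M] {p e : ℕ} (hp : p.Prime)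
    (hAc : ∀ a b : A, a * b = b * a) (hMc : ∀ a b : M, a * b = b * a)
    (hA : ∀ a : A, a ^ p ^ e = 1)
    (hM : ∀ m : M, m ^ p = 1 → ∃ w : M, w ^ p ^ (e - 1) = m)
    (f : A →* M) (hf : Function.Surjective f) : ∃ s : M →* A, ∀ m, f (s m) = m := by
  letI : CommGroup A := { (inferInstance : Group A) with mul_comm := hAc }
  letI : CommGroup M := { (inferInstance : Group M) with mul_comm := hMc }
  exact SplitAb.split hp hA hM f hf

/-- the main point: if `V` is indecomposable then its elements of order `p` form an irreducible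
group -/
theorem main {p : ℕ} [hp : Fact p.Prime] [Finite G] {V : Subgroup G} [hVn : V.Normal]
    (hc : ∀ a ∈ V, ∀ b ∈ V, a * b = b * a) (hV : IsPGroup p V) (hcop : (V.index).Coprime p)
    (h : ¬ ∃ B C : Subgroup G, B.Normal ∧ C.Normal ∧ B ≠ ⊥ ∧ C ≠ ⊥ ∧ B ⊓ C = ⊥ ∧ B ⊔ C = V)
    (B : Subgroup G) (hB : B.Normal) (hBV : B ≤ V) (hBp : ∀ b ∈ B, b ^ p = 1) :
      B = ⊥ ∨ ∀ v ∈ V, v ^ p = 1 → v ∈ B := by
  by_contra hcon
  push Not at hcon
  obtain ⟨hBb, v₀, hv₀, hv₀p, hv₀B⟩ := hcon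
  have hcopW : ∀ W : Subgroup G, W ≤ V → (Nat.card W).Coprime V.index := by
    intro W hW
    obtain ⟨m, hm⟩ := IsPGroup.iff_card.1 (hV.to_le hW)
    rw [hm]
    exact (Nat.Coprime.pow_right m hcop).symm
  obtain ⟨e, he, hemin⟩ := exists_exp hV
  have he0 : e ≠ 0 := by
    rintro rfl
    apply hv₀B
    have := he v₀ hv₀
    rw [pow_zero, pow_one] at this
    rw [this]; exact one_mem _
  -- a minimal normal subgroup in the last power subgroup
  have hWn := pw_normal hc (p ^ (e - 1))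
  have hWV : pw V hc (p ^ (e - 1)) ≤ V := by
    rintro _ ⟨b, hb, rfl⟩
    exact pow_mem hb _
  have hWb : pw V hc (p ^ (e - 1)) ≠ ⊥ := by
    intro h1
    have h3 : e ≤ e - 1 := hemin _ (fun b hb => by
      have h4 : b ^ p ^ (e - 1) ∈ pw V hc (p ^ (e - 1)) := ⟨b, hb, rfl⟩
      rw [h1] at h4
      exact h4)
    omega
  obtain ⟨B₀, ⟨hB₀n, hB₀W, hB₀b⟩, hB₀min⟩ := (Set.toFinite {X : Subgroup G | X.Normal ∧
    X ≤ pw V hc (p ^ (e - 1)) ∧ X ≠ ⊥}).exists_minimal ⟨_, hWn, le_rfl, hWb⟩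
  have hB₀V := hB₀W.trans hWV
  have hB₀p : ∀ b ∈ B₀, b ^ p = 1 := by
    intro b hb
    obtain ⟨a, ha, rfl⟩ := hB₀W hb
    rw [← pow_mul, ← pow_succ, Nat.sub_add_cancel (by omega)]
    exact he a ha
  -- minimality
  have hmeet : ∀ D : Subgroup G, D.Normal → D ⊓ B₀ ≠ ⊥ → B₀ ≤ D := by
    intro D hD h1
    have h2 := hB₀min (y := D ⊓ B₀) ⟨inferInstance, inf_le_right.trans hB₀W, h1⟩ inf_le_right
    exact h2.trans inf_le_left
  have hOn := om_normal hc p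
  have hOV : om V hc p ≤ V := fun x hx => hx.1
  have hOp : ∀ a ∈ om V hc p, a ^ p = 1 := fun x hx => hx.2
  have hOc : ∀ a ∈ om V hc p, ∀ b ∈ om V hc p, a * b = b * a := fun a ha b hb => hc a ha.1 b hb.1
  have hB₀O : B₀ ≤ om V hc p := fun x hx => ⟨hB₀V hx, hB₀p x hx⟩
  obtain ⟨X, hX⟩ := exists_right_complement'_of_coprime (hcopW V le_rfl)
  have hVX : V ⊔ X = ⊤ := hX.sup_eq_top
  have hXc : Nat.card X = V.index := hX.symm.index_eq_card.symm
  obtain ⟨C₀, hC₀n, hC₀V, hC₀B, hC₀b⟩ : ∃ C₀ : Subgroup G, C₀.Normal ∧ C₀ ≤ V ∧ C₀ ⊓ B₀ = ⊥ ∧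
      C₀ ≠ ⊥ := by
    obtain ⟨A, hAV, hAW, hWA⟩ := H76.Maschke.exists_compl (p := p) (om V hc p) B₀ hB₀O hOc hOp
    obtain ⟨C₀, h1, h2, h3, h4⟩ := maschke2 V X (om V hc p) B₀ A hc hVX hOV hB₀O hAV hAW hWA
      (by rw [hXc]; exact hcopW B₀ hB₀V)
    refine ⟨C₀, h1, h2.trans hOV, h3, ?_⟩
    intro h5
    rw [h5, sup_bot_eq] at h4
    have h6 : B ≤ B₀ := by
      rw [h4]
      exact fun x hx => ⟨hBV hx, hBp x hx⟩
    have h7 := hmeet B hB (by rw [inf_eq_left.2 h6]; exact hBb)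
    apply hv₀B
    apply h7
    rw [h4]
    exact ⟨hv₀, hv₀p⟩
  obtain ⟨C, hC₀C, ⟨hCn, hCV, hCB⟩, hCmax⟩ := (Set.toFinite {C : Subgroup G | C.Normal ∧ C ≤ V ∧
    C ⊓ B₀ = ⊥}).exists_le_maximal ⟨hC₀n, hC₀V, hC₀B⟩
  obtain ⟨H, _, _, π, hπs, hπk⟩ : ∃ (H : Type u) (_ : Group H) (_ : Finite H) (π : G →* H),
      Function.Surjective π ∧ π.ker = C :=
    ⟨G ⧸ C, inferInstance, inferInstance, QuotientGroup.mk' C, QuotientGroup.mk'_surjective _,
      QuotientGroup.ker_mk' _⟩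
  have hV'n : (V.map π).Normal := hVn.map π hπs
  have hc' : ∀ a ∈ V.map π, ∀ b ∈ V.map π, a * b = b * a := by
    rintro _ ⟨a, ha, rfl⟩ _ ⟨b, hb, rfl⟩
    rw [← map_mul, ← map_mul, hc a ha b hb]
  have hbne : ∀ b ∈ B₀, b ∈ C → b = 1 := by
    intro b hb hbC
    have h1 : b ∈ C ⊓ B₀ := ⟨hbC, hb⟩
    rw [hCB] at h1
    exact h1
  have hB₀'b : B₀.map π ≠ ⊥ := by
    intro h1
    apply hB₀b
    rw [eq_bot_iff]
    intro b hb
    have h2 := mem_map_of_mem π hb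
    rw [h1, mem_bot, ← MonoidHom.mem_ker, hπk] at h2
    exact hbne b hb h2
  have hkey : ∀ B' : Subgroup (H), B'.Normal → B' ≤ V.map π → B' ≠ ⊥ → B₀.map π ≤ B' := by
    intro B' hB' hB'V hB'b
    rw [map_le_iff_le_comap]
    apply hmeet _ (hB'.comap π)
    intro h1
    have hCD : C ≤ B'.comap π := by
      rw [← hπk]
      intro x hx
      rw [mem_comap, MonoidHom.mem_ker.1 hx]; exact one_mem _
    have hDV : B'.comap π ≤ V := by
      have h2 := Subgroup.comap_mono (f := π) hB'V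
      rw [comap_map_eq, hπk, sup_eq_left.2 hCV] at h2
      exact h2
    have h2 := hCmax (y := B'.comap π) ⟨hB'.comap π, hDV, h1⟩ hCD
    apply hB'b
    rw [← map_comap_eq_self_of_surjective hπs B', le_antisymm h2 hCD, ← hπk, eq_bot_iff]
    rintro _ ⟨x, hx, rfl⟩
    exact mem_bot.2 (MonoidHom.mem_ker.1 hx)
  have hB₀'n : (B₀.map π).Normal := hB₀n.map π hπs
  have hB₀'O : B₀.map π ≤ om (V.map π) hc' p := by
    rintro _ ⟨x, hx, rfl⟩
    exact ⟨mem_map_of_mem _ (hB₀V hx), by rw [← map_pow, hB₀p x hx, map_one]⟩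
  have hO'n := om_normal hc' p
  have hO'V : om (V.map π) hc' p ≤ V.map π := fun x hx => hx.1
  have hOeq : om (V.map π) hc' p ≤ B₀.map π := by
    have hO'p : ∀ a ∈ om (V.map π) hc' p, a ^ p = 1 := fun x hx => hx.2
    have hO'c : ∀ a ∈ om (V.map π) hc' p, ∀ b ∈ om (V.map π) hc' p, a * b = b * a :=
      fun a ha b hb => hc' a ha.1 b hb.1
    obtain ⟨A, hAV, hAW, hWA⟩ := H76.Maschke.exists_compl (p := p) (om (V.map π) hc' p) (B₀.map π)
      hB₀'O hO'c hO'p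
    obtain ⟨U, h1, h2, h3, h4⟩ := maschke2 (V.map π) (X.map π) (om (V.map π) hc' p) (B₀.map π) A hc'
      (by rw [← Subgroup.map_sup, hVX, ← MonoidHom.range_eq_map, MonoidHom.range_eq_top.2 hπs])
      hO'V hB₀'O hAV hAW hWA
      (by
        have h5 := hcopW B₀ hB₀V
        rw [← hXc] at h5
        exact (h5.coprime_dvd_left (Subgroup.card_map_dvd B₀ π)).coprime_dvd_right
          (Subgroup.card_map_dvd X π))
    have h5 : U = ⊥ := by
      by_contra h6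
      have h7 := hkey U h1 (h2.trans hO'V) h6
      apply hB₀'b
      rw [inf_eq_right.2 h7] at h3
      exact h3
    rw [h5, sup_bot_eq] at h4
    exact h4.ge
  have hpw : ∀ v ∈ V.map π, v ^ p = 1 → ∃ w ∈ V.map π, w ^ p ^ (e - 1) = v := by
    intro v hv hvp
    have h1 : v ∈ B₀.map π := hOeq ⟨hv, hvp⟩
    obtain ⟨b, hb, rfl⟩ := h1
    obtain ⟨a, ha, rfl⟩ := hB₀W hb
    exact ⟨π a, mem_map_of_mem _ ha, by rw [map_pow]⟩
  have hfs : Function.Surjective (π.subgroupMap V) := MonoidHom.subgroupMap_surjective π V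
  obtain ⟨s, hs⟩ := split_sub (p := p) (e := e) hp.out (fun a b : V => Subtype.ext (hc a a.2 b b.2))
    (fun a b : V.map π => Subtype.ext (hc' a a.2 b b.2)) (fun a => Subtype.ext (he a a.2))
    (fun m hm => by
      obtain ⟨w, hw, hwm⟩ := hpw m m.2 (congrArg Subtype.val hm)
      exact ⟨⟨w, hw⟩, Subtype.ext hwm⟩) (π.subgroupMap V) hfs
  obtain ⟨U, h1, h2, h3, h4⟩ := maschke2 V X V C (s.range.map V.subtype) hc hVX le_rfl hCV
    (map_subtype_le _) (by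
      rw [eq_bot_iff]
      rintro _ ⟨⟨_, ⟨m, rfl⟩, rfl⟩, hxC⟩
      have h5 := hs m
      have h6 : π ((s m : V) : G) = 1 := by
        rw [← MonoidHom.mem_ker, hπk]; exact hxC
      have h7 : m = 1 := by
        rw [← h5]
        exact Subtype.ext h6
      rw [h7, map_one]
      exact one_mem _) (by
      apply le_antisymm (sup_le hCV (map_subtype_le _))
      intro v hv
      have h5 : v = (v * ((s (π.subgroupMap V ⟨v, hv⟩) : V) : G)⁻¹) *
        ((s (π.subgroupMap V ⟨v, hv⟩) : V) : G) := by rw [inv_mul_cancel_right]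
      rw [h5]
      refine mul_mem (mem_sup_left ?_) (mem_sup_right ⟨_, ⟨_, rfl⟩, rfl⟩)
      rw [← hπk, MonoidHom.mem_ker, map_mul, map_inv]
      have h6 : π ((s (π.subgroupMap V ⟨v, hv⟩) : V) : G) = π v :=
        congrArg Subtype.val (hs (π.subgroupMap V ⟨v, hv⟩))
      rw [h6, mul_inv_cancel]) (by rw [hXc]; exact hcopW C hCV)
  apply h
  refine ⟨U, C, h1, hCn, ?_, ?_, h3, by rw [sup_comm]; exact h4⟩
  · intro h5
    rw [h5, sup_bot_eq] at h4
    rw [h4, inf_eq_right.2 hB₀V] at hCB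
    exact hB₀b hCB
  · intro h5
    rw [h5, le_bot_iff] at hC₀C
    exact hC₀b hC₀C

end H12.IndAb
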