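import Cfsg.Agent.Lib.H12.IndAb

/-! Indecomposable abelian `p`-groups with a `p'`-group of automorphisms. -/

set_option autoImplicit false

open Subgroup
open H76.Maschke (SD conj_inr normal_map_inl index_range_inl)

namespace H12.IndAb

variable {A : Type*} [CommGroup A] [Finite A] {p : ℕ} [hp : Fact p.Prime]

theorem inv_iff (X : Subgroup (MulAut A)) (B : Subgroup A) :
    (∀ x ∈ X, B.map x.toMonoidHom = B) ↔ ∀ x : X, ∀ b ∈ B, x • b ∈ B := by
  constructor
  · intro h x b hb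
    rw [← h x x.2]
    exact mem_map_of_mem _ hb
  · intro h x hx
    apply Subgroup.eq_of_le_of_card_ge
    · rintro _ ⟨b, hb, rfl⟩
      exact h ⟨x, hx⟩ b hb
    · exact (Subgroup.card_map_of_injective (f := x.toMonoidHom) x.injective).ge

theorem comap_inv {X : Subgroup (MulAut A)} {N : Subgroup (SD X A)} (hN : N.Normal) :
    ∀ x ∈ X, (N.comap SemidirectProduct.inl).map x.toMonoidHom = N.comap SemidirectProduct.inl := by
  rw [inv_iff]
  intro x b hb
  rw [mem_comap] at hb ⊢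
  rw [← conj_inr]
  exact hN.conj_mem _ hb _

theorem map_normal {X : Subgroup (MulAut A)} {B : Subgroup A}
    (hB : ∀ x ∈ X, B.map x.toMonoidHom = B) :
    (B.map (SemidirectProduct.inl : A →* SD X A)).Normal :=
  normal_map_inl B ((inv_iff X B).1 hB)

theorem final (hA : IsPGroup p A) (X : Subgroup (MulAut A)) (hX : (Nat.card X).Coprime p) :
    ((¬ ∃ B C : Subgroup A, B ≠ ⊥ ∧ C ≠ ⊥ ∧ (∀ x ∈ X, B.map x.toMonoidHom = B) ∧
        (∀ x ∈ X, C.map x.toMonoidHom = C) ∧ B ⊓ C = ⊥ ∧ B ⊔ C = ⊤) ↔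
      (∀ B : Subgroup A, (∀ x ∈ X, B.map x.toMonoidHom = B) → ∃ i : ℕ, ∀ a : A, a ∈ B ↔ a ^ p ^ i = 1)) ∧
    ((∀ B : Subgroup A, (∀ x ∈ X, B.map x.toMonoidHom = B) → ∃ i : ℕ, ∀ a : A, a ∈ B ↔ a ^ p ^ i = 1) ↔
      (∀ B : Subgroup A, (∀ x ∈ X, B.map x.toMonoidHom = B) → (∀ b ∈ B, b ^ p = 1) →
        B = ⊥ ∨ ∀ a : A, a ∈ B ↔ a ^ p = 1)) := by
  have hinj := SemidirectProduct.inl_injective (φ := MulDistribMulAction.toMulAut X A)
  obtain ⟨V, hV⟩ : ∃ V, V = (SemidirectProduct.inl : A →* SD X A).range := ⟨_, rfl⟩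
  have hVn : V.Normal := by
    rw [hV, SemidirectProduct.range_inl_eq_ker_rightHom]; infer_instance
  have hc : ∀ a ∈ V, ∀ b ∈ V, a * b = b * a := by
    rw [hV]
    rintro _ ⟨a, rfl⟩ _ ⟨b, rfl⟩
    rw [← map_mul, ← map_mul, mul_comm]
  have hVp : IsPGroup p V := by
    rw [hV]
    exact hA.of_surjective (MonoidHom.rangeRestrict _) (MonoidHom.rangeRestrict_surjective _)
  have hidx : (V.index).Coprime p := by
    rw [hV, index_range_inl]; exact hX
  have h31 : (¬ ∃ B C : Subgroup A, B ≠ ⊥ ∧ C ≠ ⊥ ∧ (∀ x ∈ X, B.map x.toMonoidHom = B) ∧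
        (∀ x ∈ X, C.map x.toMonoidHom = C) ∧ B ⊓ C = ⊥ ∧ B ⊔ C = ⊤) →
      (∀ B : Subgroup A, (∀ x ∈ X, B.map x.toMonoidHom = B) → (∀ b ∈ B, b ^ p = 1) →
        B = ⊥ ∨ ∀ a : A, a ∈ B ↔ a ^ p = 1) := by
    intro h B hB hBp
    have hyp : ¬ ∃ B C : Subgroup (SD X A), B.Normal ∧ C.Normal ∧ B ≠ ⊥ ∧ C ≠ ⊥ ∧ B ⊓ C = ⊥ ∧
        B ⊔ C = V := by
      rintro ⟨B', C', hB', hC', hBb, hCb, hBC, hBC'⟩
      have hBV : B' ≤ V := by rw [← hBC']; exact le_sup_left
      have hCV : C' ≤ V := by rw [← hBC']; exact le_sup_right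
      rw [hV] at hBV hCV
      refine h ⟨B'.comap SemidirectProduct.inl, C'.comap SemidirectProduct.inl, ?_, ?_,
        comap_inv hB', comap_inv hC', ?_, ?_⟩
      · intro h1
        apply hBb
        rw [← Subgroup.map_comap_eq_self hBV, h1, Subgroup.map_bot]
      · intro h1
        apply hCb
        rw [← Subgroup.map_comap_eq_self hCV, h1, Subgroup.map_bot]
      · rw [← Subgroup.comap_inf, hBC, MonoidHom.comap_bot]
        exact (MonoidHom.ker_eq_bot_iff _).2 hinj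
      · apply Subgroup.map_injective hinj
        rw [Subgroup.map_sup, Subgroup.map_comap_eq_self hBV, Subgroup.map_comap_eq_self hCV, hBC', hV,
          MonoidHom.range_eq_map]
    have hle : B.map SemidirectProduct.inl ≤ V := by
      rw [hV]; rintro _ ⟨b, _, rfl⟩; exact ⟨b, rfl⟩
    have hpp : ∀ b ∈ B.map (SemidirectProduct.inl : A →* SD X A), b ^ p = 1 := by
      rintro _ ⟨b, hb, rfl⟩
      rw [← map_pow, hBp b hb, map_one]
    rcases main hc hVp hidx hyp (B.map SemidirectProduct.inl) (map_normal hB) hle hpp with h1 | h1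
    · left
      exact (Subgroup.map_eq_bot_iff_of_injective B hinj).1 h1
    · right
      intro a
      refine ⟨hBp a, fun ha => ?_⟩
      have h2 := h1 (SemidirectProduct.inl a) (by rw [hV]; exact ⟨a, rfl⟩)
        (by rw [← map_pow, ha, map_one])
      obtain ⟨b, hb, hba⟩ := h2
      rw [← hinj hba]; exact hb
  have h23 : (∀ B : Subgroup A, (∀ x ∈ X, B.map x.toMonoidHom = B) → (∀ b ∈ B, b ^ p = 1) →
        B = ⊥ ∨ ∀ a : A, a ∈ B ↔ a ^ p = 1) →
      (∀ B : Subgroup A, (∀ x ∈ X, B.map x.toMonoidHom = B) →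
        ∃ i : ℕ, ∀ a : A, a ∈ B ↔ a ^ p ^ i = 1) := by
    intro h B hB
    obtain ⟨i, hi⟩ := omega hc hVp (fun B' hB' hB'V hB'p => by
      rw [hV] at hB'V
      rcases h (B'.comap SemidirectProduct.inl) (comap_inv hB') (fun b hb => by
        apply hinj
        rw [map_pow, map_one]
        exact hB'p _ hb) with h1 | h1
      · left
        rw [← Subgroup.map_comap_eq_self hB'V, h1, Subgroup.map_bot]
      · right
        intro v hv hvp
        rw [hV] at hv
        obtain ⟨a, rfl⟩ := hv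
        apply (h1 a).2
        apply hinj
        rw [map_pow, map_one]
        exact hvp) (B.map SemidirectProduct.inl) (map_normal hB)
      (by rw [hV]; rintro _ ⟨b, _, rfl⟩; exact ⟨b, rfl⟩)
    refine ⟨i, fun a => ?_⟩
    have h1 := hi (SemidirectProduct.inl a) (by rw [hV]; exact ⟨a, rfl⟩)
    rw [Subgroup.mem_map_iff_mem hinj, ← map_pow] at h1
    rw [h1]
    constructor
    · intro h2
      apply hinj
      rw [h2, map_one]
    · intro h2
      rw [h2, map_one]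
  have h12 : (∀ B : Subgroup A, (∀ x ∈ X, B.map x.toMonoidHom = B) →
        ∃ i : ℕ, ∀ a : A, a ∈ B ↔ a ^ p ^ i = 1) →
      (∀ B : Subgroup A, (∀ x ∈ X, B.map x.toMonoidHom = B) → (∀ b ∈ B, b ^ p = 1) →
        B = ⊥ ∨ ∀ a : A, a ∈ B ↔ a ^ p = 1) := by
    intro h B hB hBp
    obtain ⟨i, hi⟩ := h B hB
    rcases Nat.eq_zero_or_pos i with h0 | h0
    · left
      rw [eq_bot_iff]
      intro b hb
      have := (hi b).1 hb
      rw [h0, pow_zero, pow_one] at this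
      exact this
    · right
      intro a
      refine ⟨hBp a, fun ha => (hi a).2 ?_⟩
      obtain ⟨j, rfl⟩ := Nat.exists_eq_succ_of_ne_zero h0.ne'
      rw [Nat.succ_eq_add_one, pow_succ', pow_mul, ha, one_pow]
  have h13 : (∀ B : Subgroup A, (∀ x ∈ X, B.map x.toMonoidHom = B) →
        ∃ i : ℕ, ∀ a : A, a ∈ B ↔ a ^ p ^ i = 1) →
      (¬ ∃ B C : Subgroup A, B ≠ ⊥ ∧ C ≠ ⊥ ∧ (∀ x ∈ X, B.map x.toMonoidHom = B) ∧
        (∀ x ∈ X, C.map x.toMonoidHom = C) ∧ B ⊓ C = ⊥ ∧ B ⊔ C = ⊤) := by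
    rintro h ⟨B, C, hBb, hCb, hB, hC, hBC, -⟩
    obtain ⟨i, hi⟩ := h B hB
    obtain ⟨j, hj⟩ := h C hC
    rcases le_total i j with h1 | h1
    · apply hBb
      rw [← le_bot_iff, ← hBC]
      refine le_inf le_rfl ?_
      intro a ha
      rw [hj]
      rw [hi] at ha
      obtain ⟨k, rfl⟩ := Nat.exists_eq_add_of_le h1
      rw [pow_add, pow_mul, ha, one_pow]
    · apply hCb
      rw [← le_bot_iff, ← hBC]
      refine le_inf ?_ le_rfl
      intro a ha
      rw [hi]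
      rw [hj] at ha
      obtain ⟨k, rfl⟩ := Nat.exists_eq_add_of_le h1
      rw [pow_add, pow_mul, ha, one_pow]
  exact ⟨⟨fun h => h23 (h31 h), h13⟩, ⟨h12, h23⟩⟩

end H12.IndAb
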