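import Cfsg.Agent.Lib.H1.Coprime2

set_option autoImplicit false

/-! Ito's theorem on products of two abelian subgroups. -/

namespace H12.Ito

open Subgroup
open scoped commutatorElement

variable {G : Type*} [Group G]

theorem comm_mul_right {a b c : G} (h : a * c = c * a) : ⁅a, b * c⁆ = ⁅a, b⁆ := by
  have : c * a⁻¹ * c⁻¹ = a⁻¹ := by
    have h2 := (Commute.inv_left (show Commute a c from h)).eq
    rw [← h2]; group
  calc ⁅a, b * c⁆ = a * b * (c * a⁻¹ * c⁻¹) * b⁻¹ := by rw [commutatorElement_def]; group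
    _ = _ := by rw [this, commutatorElement_def]

theorem comm_mul_left {a b c : G} (h : b * c = c * b) : ⁅a * b, c⁆ = ⁅a, c⁆ := by
  have : b * c * b⁻¹ = c := by rw [h]; group
  calc ⁅a * b, c⁆ = a * (b * c * b⁻¹) * a⁻¹ * c⁻¹ := by rw [commutatorElement_def]; group
    _ = _ := by rw [this, commutatorElement_def]

theorem conj_comm (a b x : G) : x * ⁅a, b⁆ * x⁻¹ = ⁅x * a * x⁻¹, x * b * x⁻¹⁆ := by
  simp only [commutatorElement_def]; group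

theorem comm_of_mul_comm {A : Subgroup G} (h : IsMulCommutative A) :
    ∀ x ∈ A, ∀ y ∈ A, x * y = y * x := by
  intro x hx y hy
  have := h.is_comm.comm (⟨x, hx⟩ : A) ⟨y, hy⟩
  exact congrArg Subtype.val this

theorem key (A B : Subgroup G) (hA : ∀ x ∈ A, ∀ y ∈ A, x * y = y * x)
    (hB : ∀ x ∈ B, ∀ y ∈ B, x * y = y * x)
    (hAB : ∀ g : G, ∃ a ∈ A, ∃ b ∈ B, g = a * b) {a b a1 b1 : G} (ha : a ∈ A) (hb : b ∈ B)
    (ha1 : a1 ∈ A) (hb1 : b1 ∈ B) :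
    ⁅a1, b1⁆ * ⁅a, b⁆ = ⁅a, b⁆ * ⁅a1, b1⁆ := by
  obtain ⟨a3, ha3, b3, hb3, h3⟩ := hAB (b1⁻¹ * a * b1⁻¹⁻¹)
  obtain ⟨a2, ha2, b2, hb2, h2⟩ := hAB (a1⁻¹ * b * a1⁻¹⁻¹)⁻¹
  have h2' : a1⁻¹ * b * a1⁻¹⁻¹ = b2⁻¹ * a2⁻¹ := by
    rw [← mul_inv_rev, ← h2, inv_inv (a1⁻¹ * b * a1⁻¹⁻¹)]
  have e1 : b1⁻¹ * (a1⁻¹ * ⁅a, b⁆ * a1⁻¹⁻¹) * b1⁻¹⁻¹ = ⁅a3, b2⁻¹⁆ := by
    rw [conj_comm a b a1⁻¹, h2', comm_mul_right (hA _ (by
      have := A.mul_mem (A.mul_mem (A.inv_mem ha1) ha) (A.inv_mem (A.inv_mem ha1))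
      exact this) _ (A.inv_mem ha2)), hA _ (A.inv_mem ha1) _ ha]
    rw [mul_inv_cancel_right, conj_comm, h3, comm_mul_left (hB _ hb3 _ (by
      have := B.mul_mem (B.mul_mem (B.inv_mem hb1) (B.inv_mem hb2)) (B.inv_mem (B.inv_mem hb1))
      exact this)), hB _ (B.inv_mem hb1) _ (B.inv_mem hb2), mul_inv_cancel_right]
  have e2 : a1⁻¹ * (b1⁻¹ * ⁅a, b⁆ * b1⁻¹⁻¹) * a1⁻¹⁻¹ = ⁅a3, b2⁻¹⁆ := by
    rw [conj_comm a b b1⁻¹, h3, hB _ (B.inv_mem hb1) _ hb, mul_inv_cancel_right,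
      comm_mul_left (hB _ hb3 _ hb), conj_comm, h2', hA _ (A.inv_mem ha1) _ ha3,
      mul_inv_cancel_right, comm_mul_right (hA _ ha3 _ (A.inv_mem ha2))]
  have e3 := e1.trans e2.symm
  have e4 : ⁅a, b⁆ = (a1 * b1 * a1⁻¹ * b1⁻¹) * ⁅a, b⁆ * (a1 * b1 * a1⁻¹ * b1⁻¹)⁻¹ := by
    calc ⁅a, b⁆ = a1 * b1 * (b1⁻¹ * (a1⁻¹ * ⁅a, b⁆ * a1⁻¹⁻¹) * b1⁻¹⁻¹) * (a1 * b1)⁻¹ := by group
      _ = a1 * b1 * (a1⁻¹ * (b1⁻¹ * ⁅a, b⁆ * b1⁻¹⁻¹) * a1⁻¹⁻¹) * (a1 * b1)⁻¹ := by rw [e3]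
      _ = _ := by group
  rw [← commutatorElement_def] at e4
  nth_rewrite 2 [e4]
  group

/-- if `G = AB` then `[A, B]` is normal -/
theorem commutator_normal (A B : Subgroup G) (hAB : ∀ g : G, ∃ a ∈ A, ∃ b ∈ B, g = a * b) :
    (⁅A, B⁆ : Subgroup G).Normal := by
  rw [← Subgroup.normalizer_eq_top_iff, eq_top_iff]
  intro g _
  obtain ⟨a, ha, b, hb, rfl⟩ := hAB g
  exact mul_mem (H1.Coprime2.le_normalizer_commutator_left A B ha)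
    (H1.Coprime2.le_normalizer_commutator_right A B hb)

theorem commutator_eq (A B : Subgroup G) (hA : ∀ x ∈ A, ∀ y ∈ A, x * y = y * x)
    (hB : ∀ x ∈ B, ∀ y ∈ B, x * y = y * x)
    (hAB : ∀ g : G, ∃ a ∈ A, ∃ b ∈ B, g = a * b) : commutator G = ⁅A, B⁆ := by
  apply le_antisymm
  · have hN := commutator_normal A B hAB
    rw [commutator_def, Subgroup.commutator_le]
    intro x _ y _
    obtain ⟨a, ha, b, hb, rfl⟩ := hAB x
    obtain ⟨a1, ha1, b1, hb1, rfl⟩ := hAB y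
    rw [← QuotientGroup.eq_one_iff]
    have hq : ∀ a ∈ A, ∀ b ∈ B, Commute ((a : G ⧸ ⁅A, B⁆)) ((b : G ⧸ ⁅A, B⁆)) := by
      intro a ha b hb
      rw [← commutatorElement_eq_one_iff_commute]
      have : ⁅(a : G ⧸ ⁅A, B⁆), (b : G ⧸ ⁅A, B⁆)⁆ = ((⁅a, b⁆ : G) : G ⧸ ⁅A, B⁆) := rfl
      rw [this, QuotientGroup.eq_one_iff]
      exact Subgroup.commutator_mem_commutator ha hb
    have hqa : ∀ a ∈ A, ∀ b ∈ A, Commute ((a : G ⧸ ⁅A, B⁆)) ((b : G ⧸ ⁅A, B⁆)) := by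
      intro a ha b hb
      have := congrArg (QuotientGroup.mk (s := ⁅A, B⁆)) (hA a ha b hb)
      exact this
    have hqb : ∀ a ∈ B, ∀ b ∈ B, Commute ((a : G ⧸ ⁅A, B⁆)) ((b : G ⧸ ⁅A, B⁆)) := by
      intro a ha b hb
      have := congrArg (QuotientGroup.mk (s := ⁅A, B⁆)) (hB a ha b hb)
      exact this
    have h1 : Commute (((a * b : G)) : G ⧸ ⁅A, B⁆) (((a1 * b1 : G)) : G ⧸ ⁅A, B⁆) := by
      rw [QuotientGroup.mk_mul, QuotientGroup.mk_mul]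
      exact Commute.mul_left ((hqa a ha a1 ha1).mul_right (hq a ha b1 hb1))
        (((hq a1 ha1 b hb).symm).mul_right (hqb b hb b1 hb1))
    exact commutatorElement_eq_one_iff_commute.2 h1
  · rw [commutator_def]
    exact Subgroup.commutator_mono le_top le_top

/-- Ito's theorem -/
theorem ito (A B : Subgroup G) (hA : ∀ x ∈ A, ∀ y ∈ A, x * y = y * x)
    (hB : ∀ x ∈ B, ∀ y ∈ B, x * y = y * x)
    (hAB : ∀ g : G, ∃ a ∈ A, ∃ b ∈ B, g = a * b) :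
    ∀ x ∈ commutator G, ∀ y ∈ commutator G, x * y = y * x := by
  have h : ⁅A, B⁆ ≤ centralizer ((⁅A, B⁆ : Subgroup G) : Set G) := by
    rw [Subgroup.commutator_le]
    intro a ha b hb
    rw [Subgroup.commutator_def, Subgroup.centralizer_closure, Subgroup.mem_centralizer_iff]
    rintro _ ⟨a1, ha1, b1, hb1, rfl⟩
    exact key A B hA hB hAB ha hb ha1 hb1
  rw [commutator_eq A B hA hB hAB]
  intro x hx y hy
  exact (Subgroup.mem_centralizer_iff.1 (h hx) y hy).symm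

theorem derivedSeries_two (A B : Subgroup G) (hA : ∀ x ∈ A, ∀ y ∈ A, x * y = y * x)
    (hB : ∀ x ∈ B, ∀ y ∈ B, x * y = y * x)
    (hAB : ∀ g : G, ∃ a ∈ A, ∃ b ∈ B, g = a * b) : derivedSeries G 2 = ⊥ := by
  rw [derivedSeries_succ, derivedSeries_one, Subgroup.commutator_eq_bot_iff_le_centralizer]
  intro x hx
  rw [Subgroup.mem_centralizer_iff]
  intro y hy
  exact (ito A B hA hB hAB x hx y hy).symm

end H12.Ito
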