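import Cfsg.Agent.Lib.H12.ONanB
import Cfsg.Agent.Lib.H6.SLGen
import Cfsg.Agent.Lib.H21.PSLTransport
import Cfsg.Agent.Lib.H92.Norm4

/-!
O'Nan project, piece 2: identification with `PSL_n`.
-/

set_option autoImplicit false

namespace H12.ONan

open Submodule Module Matrix

open scoped LinearAlgebra.Projectivization

universe u1 u2 u3 u4

namespace Geo

section coords

variable {G : Type u1} {X : Type u2} {K : Type u3} {ι : Type u4} [Group G] [MulAction G X]
    [Field K] [Fintype ι] [DecidableEq ι] (A : Geo G X K (ι → K))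

/-- the points. -/
noncomputable def pt : X ≃ ℙ K (ι → K) :=
  Equiv.ofBijective (fun x => Projectivization.mk K (A.v x) (A.v_ne x)) (by
    constructor
    · intro x y h
      obtain ⟨a, ha⟩ := (Projectivization.mk_eq_mk_iff' K _ _ (A.v_ne x) (A.v_ne y)).1 h
      exact A.inj _ _ ⟨a, ha.symm⟩
    · intro p
      induction p using Projectivization.ind with | _ w hw =>
      obtain ⟨x, c, hc⟩ := A.surj w hw
      exact ⟨x, ((Projectivization.mk_eq_mk_iff' K _ _ hw (A.v_ne x)).2 ⟨c, hc.symm⟩).symm⟩)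

theorem pt_apply (x : X) : A.pt x = Projectivization.mk K (A.v x) (A.v_ne x) := rfl

/-- the permutation representation on the projective space. -/
noncomputable def Φ : G →* Equiv.Perm (ℙ K (ι → K)) where
  toFun g := A.pt.permCongr (MulAction.toPerm g)
  map_one' := by
    ext p
    rw [Equiv.permCongr_apply, MulAction.toPerm_apply, one_smul, Equiv.apply_symm_apply]; rfl
  map_mul' g h := by
    ext p
    rw [Equiv.Perm.mul_apply, Equiv.permCongr_apply, Equiv.permCongr_apply, Equiv.permCongr_apply,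
      MulAction.toPerm_apply, MulAction.toPerm_apply, MulAction.toPerm_apply, mul_smul,
      Equiv.symm_apply_apply]

theorem Φ_apply (g : G) (x : X) : A.Φ g (A.pt x) = A.pt (g • x) := by
  change A.pt ((MulAction.toPerm g : Equiv.Perm X) (A.pt.symm (A.pt x))) = _
  rw [Equiv.symm_apply_apply]; rfl

theorem Φ_injective [FaithfulSMul G X] : Function.Injective A.Φ := by
  intro g h hgh
  apply FaithfulSMul.eq_of_smul_eq_smul (α := X)
  intro x
  apply A.pt.injective
  rw [← A.Φ_apply, ← A.Φ_apply, hgh]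

theorem Φ_eq {g : G} {M : SpecialLinearGroup ι K} (h : ∀ y, ∃ d : K, A.v (g • y) = d • (M.1 *ᵥ (A.v y))) :
    A.Φ g = MulAction.toPermHom (SpecialLinearGroup ι K) (ℙ K (ι → K)) M := by
  ext p
  obtain ⟨y, rfl⟩ := A.pt.surjective p
  rw [A.Φ_apply, MulAction.toPermHom_apply, MulAction.toPerm_apply, A.pt_apply, A.pt_apply,
    Projectivization.smul_mk, Projectivization.mk_eq_mk_iff']
  obtain ⟨d, hd⟩ := h y
  exact ⟨d, hd.symm⟩

/-- the transvection in `SL`. -/
def tv (φ : (ι → K) →ₗ[K] K) (u : ι → K) (h : φ u = 0) : SpecialLinearGroup ι K :=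
  ⟨LinearMap.toMatrix' (LinearMap.transvection φ u), by
    rw [LinearMap.det_toMatrix', LinearMap.transvection.det, h, add_zero]⟩

theorem tv_mulVec (φ : (ι → K) →ₗ[K] K) (u : ι → K) (h : φ u = 0) (w : ι → K) :
    (tv φ u h).1 *ᵥ w = w + φ w • u := by
  change (LinearMap.toMatrix' (LinearMap.transvection φ u)) *ᵥ w = _
  rw [LinearMap.toMatrix'_mulVec]; rfl

theorem map_eq [FaithfulSMul G X] [Nontrivial ι] (h3 : 3 ≤ finrank K (ι → K))
    (htr : ∀ x y : X, ∃ g : G, g • x = y) :
    (⨆ x, A.N x).map A.Φ = (MulAction.toPermHom (SpecialLinearGroup ι K) (ℙ K (ι → K))).range := by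
  apply le_antisymm
  · rw [Subgroup.map_le_iff_le_comap, iSup_le_iff]
    intro x n hn
    rw [Subgroup.mem_comap]
    by_cases hn1 : n = 1
    · rw [hn1, map_one]; exact Subgroup.one_mem _
    obtain ⟨φ, hφ0, hφf, hφ⟩ := A.exists_act h3 hn hn1
    have h0 : φ (A.v x) = 0 := (hφf x).2 (A.fixc x n hn)
    refine ⟨tv φ (A.v x) h0, ?_⟩
    symm
    apply A.Φ_eq
    intro y
    obtain ⟨d, hd⟩ := hφ y
    exact ⟨d, by rw [tv_mulVec, hd]⟩
  · rintro _ ⟨M, rfl⟩
    have htop : ((⨆ x, A.N x).map A.Φ).comap (MulAction.toPermHom (SpecialLinearGroup ι K) (ℙ K (ι → K))) = ⊤ := by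
      apply H6.SLGen.eq_top_of_transvection_mem
      intro i j hij c
      rw [Subgroup.mem_comap]
      have hne : (Pi.single i (1 : K) : ι → K) ≠ 0 := Pi.single_ne_zero_iff.2 one_ne_zero
      obtain ⟨b, d, hd⟩ := A.surj _ hne
      have hd0 : d ≠ 0 := by rintro rfl; rw [zero_smul] at hd; exact hne hd
      have hb : A.v b = d⁻¹ • Pi.single i (1 : K) := by rw [hd, smul_smul, inv_mul_cancel₀ hd0, one_smul]
      obtain ⟨h, hh, hact⟩ := A.all_trans h3 htr ((c * d) • LinearMap.proj j) b (by
        rw [LinearMap.smul_apply, LinearMap.proj_apply, hb, Pi.smul_apply, Pi.single_eq_of_ne hij.symm]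
        simp)
      refine ⟨h, Subgroup.mem_iSup_of_mem b hh, ?_⟩
      apply A.Φ_eq
      intro y
      obtain ⟨e, he⟩ := hact y
      refine ⟨e, ?_⟩
      rw [he]
      congr 1
      rw [SpecialLinearGroup.transvection_coe, Matrix.add_mulVec, Matrix.one_mulVec, Matrix.single_mulVec]
      congr 1
      rw [LinearMap.smul_apply, LinearMap.proj_apply, smul_eq_mul, hb]
      ext k
      by_cases hk : k = i
      · subst hk
        simp only [Pi.smul_apply, Pi.single_eq_same, smul_eq_mul, Function.update_self]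
        field_simp
      · simp [Pi.single_eq_of_ne hk, Function.update_of_ne hk]
    have : M ∈ ((⨆ x, A.N x).map A.Φ).comap (MulAction.toPermHom (SpecialLinearGroup ι K) (ℙ K (ι → K))) := by
      rw [htop]; trivial
    exact this

theorem range_eq : (Projectivization.PSLAction.toPermHom (K := K) (ι := ι)).range =
    (MulAction.toPermHom (SpecialLinearGroup ι K) (ℙ K (ι → K))).range := by
  ext σ
  constructor
  · rintro ⟨g, rfl⟩
    obtain ⟨M, rfl⟩ := QuotientGroup.mk_surjective g
    exact ⟨M, rfl⟩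
  · rintro ⟨M, rfl⟩
    exact ⟨(M : Matrix.ProjectiveSpecialLinearGroup ι K), rfl⟩

theorem iso [FaithfulSMul G X] [Nontrivial ι] (h3 : 3 ≤ finrank K (ι → K))
    (htr : ∀ x y : X, ∃ g : G, g • x = y) :
    Nonempty ((⨆ x, A.N x : Subgroup G) ≃* Matrix.ProjectiveSpecialLinearGroup ι K) := by
  have e1 := (⨆ x, A.N x : Subgroup G).equivMapOfInjective A.Φ A.Φ_injective
  have e2 : (⨆ x, A.N x : Subgroup G).map A.Φ = (Projectivization.PSLAction.toPermHom (K := K) (ι := ι)).range := by
    rw [A.map_eq h3 htr, range_eq]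
  have e3 := MulEquiv.subgroupCongr e2
  have e4 := MonoidHom.ofInjective (Matrix.ProjectiveSpecialLinearGroup.toPermHom_injective (K := K) (ι := ι))
  exact ⟨(e1.trans e3).trans e4.symm⟩

end coords

section gen

variable {G : Type u1} {X : Type u2} {K : Type u3} {V : Type u4} [Group G] [MulAction G X]
    [Field K] [AddCommGroup V] [Module K V] (A : Geo G X K V)

theorem span_map {V' : Type*} [AddCommGroup V'] [Module K V'] (e : V ≃ₗ[K] V') (x y z : V) :
    e z ∈ span K {e x, e y} ↔ z ∈ span K {x, y} := by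
  rw [mem_span_pair, mem_span_pair]
  constructor
  · rintro ⟨a, b, h⟩
    refine ⟨a, b, e.injective ?_⟩
    rw [map_add, map_smul, map_smul, h]
  · rintro ⟨a, b, h⟩
    refine ⟨a, b, ?_⟩
    rw [← h, map_add, map_smul, map_smul]

/-- change of coordinates. -/
def chg {V' : Type*} [AddCommGroup V'] [Module K V'] (e : V ≃ₗ[K] V') : Geo G X K V' where
  v x := e (A.v x)
  N := A.N
  v_ne x h := A.v_ne x (by rwa [LinearEquiv.map_eq_zero_iff] at h)
  surj w hw := by
    obtain ⟨x, c, hc⟩ := A.surj (e.symm w) (by rwa [Ne, LinearEquiv.map_eq_zero_iff])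
    exact ⟨x, c, by rw [← map_smul, ← hc, LinearEquiv.apply_symm_apply]⟩
  inj x y h := by
    obtain ⟨c, hc⟩ := h
    exact A.inj x y ⟨c, e.injective (by rw [hc, map_smul])⟩
  col g x y z h := by
    rw [span_map] at h ⊢
    exact A.col g x y z h
  conj := A.conj
  fixc := A.fixc
  ntriv := A.ntriv
  line x n hn y := by
    rw [span_map]; exact A.line x n hn y
  ax x n hn y z hyz := by
    obtain ⟨t, h1, h2⟩ := A.ax x n hn y z hyz
    exact ⟨t, h1, by rw [span_map]; exact h2⟩
  tr x n hn b hb z z' hz hz' h := by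
    rw [span_map] at h
    exact A.tr x n hn b hb z z' hz hz' h

theorem isoV [FaithfulSMul G X] [FiniteDimensional K V] (h3 : 3 ≤ finrank K V)
    (htr : ∀ x y : X, ∃ g : G, g • x = y) :
    Nonempty ((⨆ x, A.N x : Subgroup G) ≃* Matrix.ProjectiveSpecialLinearGroup (Fin (finrank K V)) K) := by
  have e := (Module.finBasis K V).equivFun
  have : Nontrivial (Fin (finrank K V)) := Fin.nontrivial_iff_two_le.2 (by omega)
  exact (A.chg e).iso (by rw [Module.finrank_fin_fun]; exact h3) htr

/-- the group generated by the elation groups is normal. -/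
theorem normal : (⨆ x, A.N x : Subgroup G).Normal := by
  constructor
  intro n hn g
  have key : (⨆ x, A.N x : Subgroup G) ≤ (⨆ x, A.N x : Subgroup G).comap (MulAut.conj g).toMonoidHom := by
    rw [iSup_le_iff]
    intro x m hm
    rw [Subgroup.mem_comap]
    exact Subgroup.mem_iSup_of_mem (g • x) (A.conj g x m hm)
  exact key hn

/-- the centralizer is trivial. -/
theorem cent [FaithfulSMul G X] [FiniteDimensional K V] (h3 : 3 ≤ finrank K V) :
    Subgroup.centralizer ((⨆ x, A.N x : Subgroup G) : Set G) = ⊥ := by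
  rw [eq_bot_iff]
  intro g hg
  rw [Subgroup.mem_centralizer_iff] at hg
  rw [Subgroup.mem_bot]
  apply FaithfulSMul.eq_of_smul_eq_smul (α := X)
  intro x
  rw [one_smul]
  by_contra hgx
  obtain ⟨n, hn, hn1⟩ := A.ntriv x
  obtain ⟨φ, hφ0, hφf, hφ⟩ := A.exists_act h3 hn hn1
  have hc : n ∈ A.N (g • x) := by
    have h1 := A.conj g x n hn
    have h2 : n * g = g * n := hg n (Subgroup.mem_iSup_of_mem x hn)
    rwa [← h2, mul_inv_cancel_right] at h1
  obtain ⟨z, hz⟩ := A.exists_pt hφ0
  have hxz : x ≠ z := by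
    rintro rfl
    exact hz ((hφf x).2 (A.fixc x n hn))
  have hgz : g • x ≠ z := by
    intro h
    apply hz
    rw [← h]
    exact (hφf _).2 (A.fixc _ n hc)
  obtain ⟨a, b, hb, hab⟩ := A.line' hn hxz.symm
  obtain ⟨a', b', hb', hab'⟩ := A.line' hc hgz.symm
  have ha : a ≠ 0 := by
    rintro rfl
    rw [zero_smul, zero_add] at hab
    exact hz ((hφf z).2 (A.inj _ _ ⟨b, hab⟩))
  -- `a v x + b v z = a' v (g x) + b' v z`
  have h1 : a • A.v x + b • A.v z = a' • A.v (g • x) + b' • A.v z := by rw [← hab, hab']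
  have hφx : φ (A.v x) = 0 := (hφf x).2 (A.fixc x n hn)
  have hφg : φ (A.v (g • x)) = 0 := (hφf _).2 (A.fixc _ n hc)
  have h2 := congrArg φ h1
  rw [map_add, map_add, map_smul, map_smul, map_smul, map_smul, hφx, hφg, smul_zero, smul_zero, zero_add,
    zero_add, smul_eq_mul, smul_eq_mul] at h2
  have h3 : b = b' := mul_right_cancel₀ hz h2
  rw [h3, add_left_inj] at h1
  apply hgx
  symm
  apply A.inj
  refine ⟨a⁻¹ * a', ?_⟩
  rw [← smul_smul, ← h1, smul_smul, inv_mul_cancel₀ ha, one_smul]

include A in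
/-- the number of points. -/
theorem card_eq [FiniteDimensional K V] : Nat.card X * (Nat.card K - 1) = Nat.card K ^ finrank K V - 1 := by
  have e := (Module.finBasis K V).equivFun
  have h1 : Nat.card X = Nat.card (ℙ K (Fin (finrank K V) → K)) := Nat.card_congr (A.chg e).pt
  have h2 := Projectivization.card (k := K) (V := Fin (finrank K V) → K)
  rw [h1, ← h2, Nat.card_fun, Nat.card_fin]

end gen

/-- a finite field in `Type`. -/
theorem exists_field (K : Type u3) [Field K] [Finite K] :
    ∃ (F : Type) (_ : Field F) (_ : Fintype F), Nat.card F = Nat.card K ∧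
      ∀ n : ℕ, Nonempty (Matrix.ProjectiveSpecialLinearGroup (Fin n) K ≃* Matrix.ProjectiveSpecialLinearGroup (Fin n) F) := by
  have : Fintype K := Fintype.ofFinite K
  obtain ⟨p, hCP⟩ := CharP.exists K
  obtain ⟨n, hp, hc⟩ := FiniteField.card K p
  have : Fact p.Prime := ⟨hp⟩
  have hF : Fintype (GaloisField p n) := Fintype.ofFinite _
  have h1 : Fintype.card (GaloisField p n) = p ^ (n : ℕ) := by
    rw [← Nat.card_eq_fintype_card]
    exact GaloisField.card p n n.ne_zero
  refine ⟨GaloisField p n, inferInstance, hF, ?_, fun m => ?_⟩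
  · rw [Nat.card_eq_fintype_card, Nat.card_eq_fintype_card, h1, hc]
  · exact H21.PSLTransport.psl_congr_card (by rw [h1, hc]) (Fin m)

/-- final form. -/
theorem main {G : Type u1} {X : Type u2} {K : Type u3} {V : Type u4} [Group G] [MulAction G X]
    [Field K] [Finite K] [AddCommGroup V] [Module K V] (A : Geo G X K V) [FaithfulSMul G X]
    [FiniteDimensional K V] (h3 : 3 ≤ finrank K V) (htr : ∀ x y : X, ∃ g : G, g • x = y) :
    ∃ (F : Type) (_ : Field F) (_ : Fintype F) (n : ℕ), 3 ≤ n ∧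
      (⨆ x, A.N x : Subgroup G).Normal ∧ Subgroup.centralizer ((⨆ x, A.N x : Subgroup G) : Set G) = ⊥ ∧
      Nonempty ((⨆ x, A.N x : Subgroup G) ≃* Matrix.ProjectiveSpecialLinearGroup (Fin n) F) ∧
      Nat.card X * (Nat.card F - 1) = Nat.card F ^ n - 1 := by
  obtain ⟨F, i1, i2, hF, hP⟩ := exists_field K
  obtain ⟨e⟩ := A.isoV h3 htr
  obtain ⟨f⟩ := hP (finrank K V)
  exact ⟨F, i1, i2, finrank K V, h3, A.normal, A.cent h3, ⟨e.trans f⟩, by rw [hF]; exact A.card_eq⟩

/-- `S2201` form. -/
theorem main2201 {G : Type u1} {X : Type u2} {K : Type u3} {V : Type u4} [Group G] [Fintype X] [MulAction G X]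
    [Field K] [Finite K] [AddCommGroup V] [Module K V] (A : Geo G X K V) [FaithfulSMul G X]
    [FiniteDimensional K V] (h3 : 3 ≤ finrank K V) (htr : ∀ x y : X, ∃ g : G, g • x = y) :
    ∃ (L : Subgroup G) (F : Type) (_ : Field F) (_ : Fintype F) (n : ℕ), 3 ≤ n ∧ L.Normal ∧
      Subgroup.centralizer (L : Set G) = ⊥ ∧ Nonempty (↥L ≃* Matrix.ProjectiveSpecialLinearGroup (Fin n) F) ∧
      Fintype.card X * (Fintype.card F - 1) = Fintype.card F ^ n - 1 := by
  obtain ⟨F, i1, i2, n, h1, h2, h4, h5, h6⟩ := A.main h3 htr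
  exact ⟨_, F, i1, i2, n, h1, h2, h4, h5, by rwa [← Nat.card_eq_fintype_card, ← Nat.card_eq_fintype_card]⟩

/-- `S3410` form. -/
theorem main3410 {G : Type u1} {X : Type u2} {K : Type u3} {V : Type u4} [Group G] [Finite G] [MulAction G X]
    [Field K] [Finite K] [AddCommGroup V] [Module K V] (A : Geo G X K V) [FaithfulSMul G X]
    [FiniteDimensional K V] (h3 : 3 ≤ finrank K V) (htr : ∀ x y : X, ∃ g : G, g • x = y) :
    ∃ (F : Type) (_ : Field F) (_ : Fintype F) (n : ℕ), 3 ≤ n ∧
      Nonempty (↥(Cfsg.generalizedFittingSubgroup G) ≃* Matrix.ProjectiveSpecialLinearGroup (Fin n) F) := by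
  obtain ⟨F, i1, i2, n, h1, h2, h4, ⟨e⟩, h6⟩ := A.main h3 htr
  refine ⟨F, i1, i2, n, h1, ?_⟩
  have hs : IsSimpleGroup (Matrix.ProjectiveSpecialLinearGroup (Fin n) F) :=
    H6.SLGen.psl_isSimpleGroup (by rw [Fintype.card_fin]; exact h1)
  have hs' : IsSimpleGroup (⨆ x, A.N x : Subgroup G) := e.isSimpleGroup_congr.2 hs
  have hnt : Nontrivial (Fin n) := Fin.nontrivial_iff_two_le.2 (by omega)
  have hperf : commutator (Matrix.ProjectiveSpecialLinearGroup (Fin n) F) = ⊤ :=
    H6.SLGen.psl_commutator_eq_top (by rw [Fintype.card_fin]; exact h1)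
  have hnc : ∃ x y : (⨆ x, A.N x : Subgroup G), x * y ≠ y * x := by
    by_contra hcon
    push Not at hcon
    have h7 : commutator (Matrix.ProjectiveSpecialLinearGroup (Fin n) F) = ⊥ := by
      rw [eq_bot_iff, commutator_def, Subgroup.commutator_le]
      intro x _ y _
      rw [Subgroup.mem_bot, commutatorElement_eq_one_iff_mul_comm]
      have := congrArg e (hcon (e.symm x) (e.symm y))
      simpa using this
    rw [hperf] at h7
    have h8 : Subsingleton (Matrix.ProjectiveSpecialLinearGroup (Fin n) F) := by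
      rw [← Subgroup.subsingleton_iff]
      exact subsingleton_of_top_eq_bot h7 
    exact not_subsingleton _ h8
  have hg : Cfsg.generalizedFittingSubgroup G = (⨆ x, A.N x : Subgroup G) := by
    have := H92.Norm4.gfit_of_simple (⨆ x, A.N x : Subgroup G) hs' hnc (by
      intro z hz
      have h7 : z ∈ Subgroup.centralizer ((⨆ x, A.N x : Subgroup G) : Set G) := by
        rw [Subgroup.mem_centralizer_iff]
        intro y hy
        exact (hz y hy).symm
      rw [h4] at h7
      exact h7)
    exact this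
  rw [hg]
  exact ⟨e⟩

end Geo

end H12.ONan
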