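import Mathlib

/-! Splitting of surjections onto homocyclic abelian groups. -/

set_option autoImplicit false

open Subgroup

namespace H12.SplitAb

/-- homomorphism from a cyclic group. -/
noncomputable def cyc {A : Type*} [CommGroup A] {n : ℕ} (hn : n ≠ 0) (a : A) (ha : a ^ n = 1) :
    Multiplicative (ZMod n) →* A :=
  haveI : NeZero n := ⟨hn⟩
  { toFun := fun z => a ^ (Multiplicative.toAdd z).val
    map_one' := by
      change a ^ (0 : ZMod n).val = 1
      rw [ZMod.val_zero, pow_zero]
    map_mul' := fun x y => by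
      change a ^ (Multiplicative.toAdd x + Multiplicative.toAdd y).val = _
      rw [ZMod.val_add, ← pow_add]
      exact (pow_eq_pow_mod _ ha).symm }

theorem cyc_apply {A : Type*} [CommGroup A] {n : ℕ} (hn : n ≠ 0) (a : A) (ha : a ^ n = 1)
    (z : Multiplicative (ZMod n)) : cyc hn a ha z = a ^ (Multiplicative.toAdd z).val := rfl

theorem split {A M : Type*} [CommGroup A] [CommGroup M] [Finite M] {p e : ℕ} (hp : p.Prime)
    (hA : ∀ a : A, a ^ p ^ e = 1)
    (hM : ∀ m : M, m ^ p = 1 → ∃ w : M, w ^ p ^ (e - 1) = m)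
    (f : A →* M) (hf : Function.Surjective f) : ∃ s : M →* A, ∀ m, f (s m) = m := by
  classical
  have hM1 : ∀ m : M, m ^ p ^ e = 1 := by
    intro m
    obtain ⟨a, rfl⟩ := hf m
    rw [← map_pow, hA, map_one]
  obtain ⟨ι, _, n, hn, ⟨E⟩⟩ := CommGroup.equiv_prod_multiplicative_zmod_of_finite M
  have hne : ∀ i, n i ≠ 0 := fun i => by have := hn i; omega
  have hdiv : ∀ i, n i ∣ p ^ e := by
    intro i
    have h1 : (Pi.mulSingle i (Multiplicative.ofAdd (1 : ZMod (n i))) :
        (i : ι) → Multiplicative (ZMod (n i))) ^ p ^ e = 1 := by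
      apply E.symm.injective
      rw [map_pow, map_one E.symm]
      exact hM1 _
    have h2 := congrFun h1 i
    rw [Pi.pow_apply, Pi.mulSingle_eq_same, Pi.one_apply] at h2
    have h3 := congrArg Multiplicative.toAdd h2
    rw [toAdd_pow, toAdd_ofAdd, toAdd_one, nsmul_eq_mul, mul_one] at h3
    exact (ZMod.natCast_eq_zero_iff _ _).1 h3
  have hord : ∀ i, n i = p ^ e := by
    intro i
    obtain ⟨k, hke, hk⟩ := (Nat.dvd_prime_pow hp).1 (hdiv i)
    have hk0 : k ≠ 0 := by
      rintro rfl
      have := hn i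
      rw [hk, pow_zero] at this
      exact absurd this (lt_irrefl _)
    have h1 : ((E.symm (Pi.mulSingle i (Multiplicative.ofAdd 1))) ^ p ^ (k - 1)) ^ p = 1 := by
      rw [← pow_mul, ← pow_succ, Nat.sub_add_cancel (by omega), ← map_pow, ← Pi.mulSingle_pow, ← hk]
      have : (Multiplicative.ofAdd (1 : ZMod (n i))) ^ n i = 1 := by
        apply Multiplicative.toAdd.injective
        rw [toAdd_pow, toAdd_ofAdd, toAdd_one, nsmul_eq_mul, mul_one, ZMod.natCast_self]
      rw [this, Pi.mulSingle_one, map_one]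
    obtain ⟨w, hw⟩ := hM _ h1
    have h2 := congrFun (congrArg E hw) i
    rw [map_pow, map_pow, MulEquiv.apply_symm_apply, Pi.pow_apply, Pi.pow_apply, Pi.mulSingle_eq_same] at h2
    have h3 := congrArg Multiplicative.toAdd h2
    rw [toAdd_pow, toAdd_pow, toAdd_ofAdd, nsmul_eq_mul, nsmul_eq_mul, mul_one] at h3
    by_contra hne'
    have hlt : k ≤ e - 1 := by
      by_contra hge
      apply hne'
      rw [hk]; congr 1; omega
    have h4 : ((p ^ (e - 1) : ℕ) : ZMod (n i)) = 0 := by
      rw [ZMod.natCast_eq_zero_iff, hk]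
      exact pow_dvd_pow p hlt
    rw [h4, zero_mul] at h3
    have h5 := (ZMod.natCast_eq_zero_iff _ _).1 h3.symm
    rw [hk] at h5
    have h6 := Nat.le_of_dvd (pow_pos hp.pos _) h5
    have h7 : p ^ (k - 1) < p ^ k := Nat.pow_lt_pow_right hp.one_lt (by omega)
    omega
  choose a ha using fun i => hf (E.symm (Pi.mulSingle i (Multiplicative.ofAdd 1)))
  have ha1 : ∀ i, a i ^ n i = 1 := fun i => by rw [hord i]; exact hA _
  let S : ((i : ι) → Multiplicative (ZMod (n i))) →* A :=
    ∏ i, (cyc (hne i) (a i) (ha1 i)).comp (Pi.evalMonoidHom _ i)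
  refine ⟨S.comp E.toMonoidHom, ?_⟩
  have key : f.comp S = E.symm.toMonoidHom := by
    apply MonoidHom.functions_ext
    intro i x
    have h1 : S (Pi.mulSingle i x) = cyc (hne i) (a i) (ha1 i) x := by
      change (∏ j, (cyc (hne j) (a j) (ha1 j)).comp (Pi.evalMonoidHom _ j)) (Pi.mulSingle i x) = _
      rw [MonoidHom.finsetProd_apply, Finset.prod_eq_single i]
      · rw [MonoidHom.comp_apply, Pi.evalMonoidHom_apply, Pi.mulSingle_eq_same]
      · intro j _ hji
        rw [MonoidHom.comp_apply, Pi.evalMonoidHom_apply, Pi.mulSingle_eq_of_ne hji, map_one]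
      · intro h; exact absurd (Finset.mem_univ i) h
    rw [MonoidHom.comp_apply, h1, cyc_apply, map_pow, ha]
    change _ = E.symm _
    rw [← map_pow, ← Pi.mulSingle_pow]
    congr 2
    have : NeZero (n i) := ⟨hne i⟩
    apply Multiplicative.toAdd.injective
    rw [toAdd_pow, toAdd_ofAdd, nsmul_eq_mul, mul_one, ZMod.natCast_zmod_val]
  intro m
  have h1 := DFunLike.congr_fun key (E m)
  rw [MonoidHom.comp_apply] at h1
  rw [MonoidHom.comp_apply]
  change f (S (E m)) = m
  rw [h1]
  exact E.symm_apply_apply m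

end H12.SplitAb
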